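/-
Normal 2-coverings: basic notions.
-/
import Mathlib

set_option autoImplicit false

namespace Cfsg.Agent.Lib.Cover2

open Polynomial

/-- `G` is the union of the conjugates of two proper subgroups. -/
def Cover2 (G : Type*) [Group G] : Prop :=
  ∃ H K : Subgroup G, H ≠ ⊤ ∧ K ≠ ⊤ ∧ ∀ g : G, ∃ x : G, x * g * x⁻¹ ∈ H ∨ x * g * x⁻¹ ∈ K

theorem cover2_quotient {G : Type*} [Group G] (Z : Subgroup G) [Z.Normal] (H K : Subgroup G)
    (hZH : Z ≤ H) (hZK : Z ≤ K) (hH : H ≠ ⊤) (hK : K ≠ ⊤)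
    (hc : ∀ g : G, ∃ x : G, x * g * x⁻¹ ∈ H ∨ x * g * x⁻¹ ∈ K) : Cover2 (G ⧸ Z) := by
  have key : ∀ L : Subgroup G, Z ≤ L → L ≠ ⊤ → L.map (QuotientGroup.mk' Z) ≠ ⊤ := by
    intro L hL hne htop
    apply hne
    rw [eq_top_iff]
    intro g _
    have : (QuotientGroup.mk' Z g) ∈ L.map (QuotientGroup.mk' Z) := by rw [htop]; trivial
    obtain ⟨l, hl, e⟩ := this
    have e' : l⁻¹ * g ∈ Z := by
      rw [← QuotientGroup.eq]
      exact e
    have := L.mul_mem hl (hL e')
    simpa using this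
  refine ⟨H.map (QuotientGroup.mk' Z), K.map (QuotientGroup.mk' Z), key H hZH hH, key K hZK hK, ?_⟩
  intro g
  obtain ⟨g', rfl⟩ := QuotientGroup.mk'_surjective Z g
  obtain ⟨x, hx⟩ := hc g'
  refine ⟨QuotientGroup.mk' Z x, ?_⟩
  rcases hx with hx | hx
  · left
    exact ⟨_, hx, by simp⟩
  · right
    exact ⟨_, hx, by simp⟩

/-- An irreducible polynomial of any positive degree exists over a finite field. -/
theorem exists_irreducible_natDegree (F : Type*) [Field F] [Finite F] (d : ℕ) (hd : d ≠ 0) :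
    ∃ h : F[X], Irreducible h ∧ h.Monic ∧ h.natDegree = d := by
  obtain ⟨p, hp⟩ := CharP.exists F
  haveI : Fact p.Prime := ⟨CharP.char_is_prime F p⟩
  haveI : NeZero d := ⟨hd⟩
  let L := FiniteField.Extension F p d
  obtain ⟨α, hα⟩ := Field.exists_primitive_element F L
  have hint : IsIntegral F α := .of_finite F α
  refine ⟨minpoly F α, minpoly.irreducible hint, minpoly.monic hint, ?_⟩
  rw [← IntermediateField.adjoin.finrank hint, hα, IntermediateField.finrank_top']
  exact FiniteField.finrank_extension F p d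

/-- If `h` has degree dividing that of the irreducible `p`, it has a root modulo `p`. -/
theorem exists_comp_dvd {F : Type*} [Field F] [Finite F] {h p : F[X]} (hh : Irreducible h)
    (hp : Irreducible p) (hd : h.natDegree ∣ p.natDegree) : ∃ a : F[X], p ∣ h.comp a := by
  haveI : Fact (Irreducible h) := ⟨hh⟩
  haveI : Fact (Irreducible p) := ⟨hp⟩
  have hh0 : h ≠ 0 := hh.ne_zero
  have hp0 : p ≠ 0 := hp.ne_zero
  have hdeg : p.natDegree ≠ 0 := hp.natDegree_pos.ne'
  haveI : Module.Finite F (AdjoinRoot p) := (AdjoinRoot.powerBasis hp0).finite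
  haveI : Finite (AdjoinRoot p) := Module.finite_of_finite F
  have e1 : Module.finrank F (AdjoinRoot h) = h.natDegree := by
    rw [(AdjoinRoot.powerBasis hh0).finrank, AdjoinRoot.powerBasis_dim]
  have e2 : Module.finrank F (AdjoinRoot p) = p.natDegree := by
    rw [(AdjoinRoot.powerBasis hp0).finrank, AdjoinRoot.powerBasis_dim]
  obtain ⟨f⟩ : Nonempty (AdjoinRoot h →ₐ[F] AdjoinRoot p) :=
    FiniteField.nonempty_algHom_of_finrank_dvd (by rw [e1, e2]; exact hd)
  obtain ⟨a, ha⟩ := AdjoinRoot.mk_surjective (f (AdjoinRoot.root h))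
  refine ⟨a, ?_⟩
  rw [← AdjoinRoot.mk_eq_zero]
  have : aeval (f (AdjoinRoot.root h)) h = 0 := by
    rw [Polynomial.aeval_algHom_apply, AdjoinRoot.aeval_eq]
    simp
  rw [← ha] at this
  rw [← this]
  have e3 : h.comp a = aeval a h := rfl
  have e4 := Polynomial.aeval_algHom_apply (AdjoinRoot.mkₐ p) a h
  rw [e3]
  exact e4.symm

end Cfsg.Agent.Lib.Cover2
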