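import Mathlib
import Cfsg.Agent.Lib.G2Oct.Stab

/-!
A normal 2-covering of `G₂(2^a)`: every automorphism of the split octonions in characteristic two stabilizes a
quadratic subalgebra `F[v]` of trace one, and the automorphism group has exactly two orbits on such subalgebras.
-/

set_option autoImplicit false
set_option linter.unusedSectionVars false
set_option linter.unusedSimpArgs false
set_option linter.unusedVariables false

namespace Cfsg.Agent.Lib.Cover2.G2

open Cfsg.Lie Matrix Cfsg.Agent.Lib.G2Oct.Zorn Cfsg.Agent.Lib.G2Oct.Stab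

variable {F : Type*} [Field F]

/-! ### The polar form -/

/-- The polar form as a bilinear form. -/
def B8L : LinearMap.BilinForm F (O F) :=
  LinearMap.mk₂ F B8
    (fun x y z => by simp only [B8, Pi.add_apply]; ring)
    (fun c x y => by simp only [B8, Pi.smul_apply, smul_eq_mul]; ring)
    (fun x y z => by simp only [B8, Pi.add_apply]; ring)
    (fun c x y => by simp only [B8, Pi.smul_apply, smul_eq_mul]; ring)

theorem B8L_apply (x y : O F) : B8L x y = B8 x y := rfl

theorem B8_comm' (u v : O F) : B8 u v = B8 v u := by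
  simp only [B8]
  ring

theorem nondeg' {z : O F} (h : ∀ w, B8 z w = 0) : z = 0 := by
  have c : ∀ i : Fin 8, B8 z (Pi.single i 1) = 0 := fun i => h _
  funext i
  fin_cases i
  · simpa [B8] using c 7
  · simpa [B8] using c 4
  · simpa [B8] using c 5
  · simpa [B8] using c 6
  · simpa [B8] using c 1
  · simpa [B8] using c 2
  · simpa [B8] using c 3
  · simpa [B8] using c 0

theorem B8L_refl : (B8L (F := F)).IsRefl := by
  intro x y h
  rw [B8L_apply] at h ⊢
  rw [B8_comm']
  exact h

theorem B8L_nondeg : (B8L (F := F)).Nondegenerate := by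
  constructor
  · intro x hx
    exact nondeg' hx
  · intro x hx
    apply nondeg'
    intro w
    rw [B8_comm']
    exact hx w

theorem B8_one (x : O F) : B8 x one8 = T8 x := by
  simp [B8, one8, T8]

theorem N8_add_sc (x : O F) (c : F) : N8 (x + c • one8) = N8 x + c * T8 x + c ^ 2 := by
  simp [N8, T8, one8]
  ring

theorem T8_add_sc (x : O F) (c : F) : T8 (x + c • one8) = T8 x + 2 * c := by
  simp [T8, one8]
  ring

theorem T8_smul' (c : F) (x : O F) : T8 (c • x) = c * T8 x := by
  simp [T8]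
  ring

section Two

variable [CharP F 2]

theorem two_zero : (2 : F) = 0 := CharTwo.two_eq_zero

/-- Every automorphism stabilizes a subalgebra `F[v]` with `v` of trace one. -/
theorem exists_inv_elt {g : GL (Fin 8) F} (hg : g ∈ G2 F) :
    ∃ v : O F, T8 v = 1 ∧ (act g v = v ∨ act g v = v + one8) := by
  have hg' : g⁻¹ ∈ G2 F := Subgroup.inv_mem _ hg
  -- the image of the trace zero elements
  let Φ : O F →ₗ[F] O F := ((g⁻¹ : GL (Fin 8) F) : Matrix (Fin 8) (Fin 8) F).mulVecLin - LinearMap.id
  have hΦ : ∀ u, Φ u = act g⁻¹ u - u := fun u => rfl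
  let U : Submodule F (O F) := (B8L (F := F)).orthogonal (Submodule.span F {one8})
  have hU : ∀ u, u ∈ U ↔ T8 u = 0 := by
    intro u
    constructor
    · intro hu
      have := hu one8 (Submodule.mem_span_singleton_self _)
      rw [B8L_apply, B8_comm', B8_one] at this
      exact this
    · intro hu n hn
      obtain ⟨c, rfl⟩ := Submodule.mem_span_singleton.mp hn
      show B8L (c • one8) u = 0
      rw [map_smul, LinearMap.smul_apply, B8L_apply, B8_comm', B8_one, hu, smul_zero]
  let A : Submodule F (O F) := U.map Φ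
  have hA : (one8 : O F) ∉ A := by
    rintro ⟨u, hu, hu1⟩
    have hu0 : T8 u = 0 := (hU u).1 hu
    rw [hΦ] at hu1
    have e : act g⁻¹ u = u + (1 : F) • one8 := by
      rw [one_smul, ← hu1]
      abel
    have := N8_act hg' u
    rw [e, N8_add_sc, hu0] at this
    have h1 : (1 : F) = 0 := by linear_combination this
    exact one_ne_zero h1
  obtain ⟨w, hw, hw1⟩ : ∃ w ∈ (B8L (F := F)).orthogonal A, B8 w one8 ≠ 0 := by
    by_contra hcon
    push Not at hcon
    apply hA
    rw [← LinearMap.BilinForm.orthogonal_orthogonal B8L_nondeg B8L_refl A]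
    intro n hn
    exact hcon n hn
  rw [B8_one] at hw1
  -- `(g - 1) w` is perpendicular to the trace zero elements
  have hz : act g w - w ∈ Submodule.span F {(one8 : O F)} := by
    rw [← LinearMap.BilinForm.orthogonal_orthogonal B8L_nondeg B8L_refl (Submodule.span F {(one8 : O F)})]
    intro u hu
    have h1 : B8 (Φ u) w = 0 := hw (Φ u) (Submodule.mem_map_of_mem hu)
    rw [hΦ] at h1
    have h2 : B8 (act g⁻¹ u) w = B8 u (act g w) := by
      rw [← B8_act hg (act g⁻¹ u) w, act_act_inv]
    show B8 u (act g w - w) = 0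
    have h3 : B8 (act g⁻¹ u - u) w = B8 (act g⁻¹ u) w - B8 u w := by
      simp only [B8, Pi.sub_apply]
      ring
    have h4 : B8 u (act g w - w) = B8 u (act g w) - B8 u w := by
      simp only [B8, Pi.sub_apply]
      ring
    rw [h4, ← h2, ← h3, h1]
  obtain ⟨c, hc⟩ := Submodule.mem_span_singleton.mp hz
  have hgw : act g w = w + c • one8 := by
    rw [hc]
    abel
  refine ⟨(T8 w)⁻¹ • w, ?_, ?_⟩
  · rw [T8_smul', inv_mul_cancel₀ hw1]
  · set v := (T8 w)⁻¹ • w with hv
    have hTv : T8 v = 1 := by rw [hv, T8_smul', inv_mul_cancel₀ hw1]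
    have hgv : act g v = v + ((T8 w)⁻¹ * c) • one8 := by
      rw [hv, act_smul, hgw, smul_add, smul_smul]
    set d := (T8 w)⁻¹ * c with hd
    have hN := N8_act hg v
    rw [hgv, N8_add_sc, hTv] at hN
    have hd0 : d * (d + 1) = 0 := by linear_combination hN
    rcases mul_eq_zero.mp hd0 with h | h
    · left
      rw [hgv, h, zero_smul, add_zero]
    · right
      have : d = 1 := by
        have h2 : (2 : F) = 0 := two_zero
        linear_combination h - h2
      rw [hgv, this, one_smul]

/-- The element of the nonsplit class. -/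
def vm (β : F) : O F := ![0, 1, 0, 0, β, 0, 0, 1]

theorem act_e0_mul {h h' : GL (Fin 8) F} (hh : act h e0 = e0) (hh' : act h' e0 = e0) : act (h * h') e0 = e0 := by
  rw [act_mul, hh', hh]

theorem trG_e0 (i j : Fin 3) (hij : i ≠ j) (t : F) : act (trG i j hij t) (e0 : O F) = e0 := by
  rw [trG_act]
  fin_cases i <;> fin_cases j <;> first | exact absurd rfl hij | (funext k; fin_cases k <;> simp [trF, e0])

/-- Moving a vector of the form `(0, a, 0, 0)`, keeping the idempotent. -/
theorem exists_move_uv {x : O F} (h0 : x 0 = 0) (h4 : x 4 = 0) (h5 : x 5 = 0) (h6 : x 6 = 0) (h7 : x 7 = 0)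
    (hne : x ≠ 0) : ∃ h ∈ G2 F, act h e0 = e0 ∧ act h x = x0 := by
  classical
  -- make the first coordinate nonzero
  obtain ⟨h₁, hh₁, hh₁e, hx₁⟩ : ∃ h₁ ∈ G2 F, act h₁ e0 = e0 ∧ (act h₁ x) 1 ≠ 0 ∧ (act h₁ x) 0 = 0 ∧ (act h₁ x) 4 = 0 ∧
      (act h₁ x) 5 = 0 ∧ (act h₁ x) 6 = 0 ∧ (act h₁ x) 7 = 0 := by
    by_cases c1 : x 1 = 0
    · by_cases c2 : x 2 = 0
      · have c3 : x 3 ≠ 0 := by
          intro c3
          apply hne
          funext i
          fin_cases i <;> simp [h0, h4, h5, h6, h7, c1, c2, c3]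
        refine ⟨trG 0 2 (by decide) 1, trG_mem _ _ _ _, trG_e0 _ _ _ _, ?_⟩
        rw [trG_act]
        simp [trF, h0, h4, h5, h6, h7, c1, c2, c3]
      · refine ⟨trG 0 1 (by decide) 1, trG_mem _ _ _ _, trG_e0 _ _ _ _, ?_⟩
        rw [trG_act]
        simp [trF, h0, h4, h5, h6, h7, c1, c2]
    · refine ⟨1, Subgroup.one_mem _, act_one _, ?_⟩
      rw [act_one]
      exact ⟨c1, h0, h4, h5, h6, h7⟩
  obtain ⟨c1, h0', h4', h5', h6', h7'⟩ := hx₁
  set y := act h₁ x with hy
  -- kill the other coordinates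
  let h₂ := trG 1 0 (by decide) (-(y 2) / y 1) * trG 2 0 (by decide) (-(y 3) / y 1)
  have hh₂ : h₂ ∈ G2 F := Subgroup.mul_mem _ (trG_mem _ _ _ _) (trG_mem _ _ _ _)
  have hh₂e : act h₂ e0 = e0 := act_e0_mul (trG_e0 _ _ _ _) (trG_e0 _ _ _ _)
  set y' := act h₂ y with hy'
  have e1 : y' = ![0, y 1, 0, 0, 0, 0, 0, 0] := by
    rw [hy', act_mul, trG_act, trG_act]
    funext i
    fin_cases i <;> simp [trF, h0', h4', h5', h6', h7']
    · field_simp
      ring
    · field_simp
      ring
  -- normalize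
  let h₃ := trG 1 0 (by decide) (-1) * trG 0 1 (by decide) (1 - y 1) * trG 1 0 (by decide) ((y 1)⁻¹)
  have hh₃ : h₃ ∈ G2 F := Subgroup.mul_mem _ (Subgroup.mul_mem _ (trG_mem _ _ _ _) (trG_mem _ _ _ _)) (trG_mem _ _ _ _)
  have hh₃e : act h₃ e0 = e0 := act_e0_mul (act_e0_mul (trG_e0 _ _ _ _) (trG_e0 _ _ _ _)) (trG_e0 _ _ _ _)
  refine ⟨h₃ * h₂ * h₁, Subgroup.mul_mem _ (Subgroup.mul_mem _ hh₃ hh₂) hh₁,
    act_e0_mul (act_e0_mul hh₃e hh₂e) hh₁e, ?_⟩
  rw [act_mul, act_mul, ← hy, ← hy', e1]
  simp only [h₃, act_mul, trG_act]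
  funext i
  fin_cases i <;> simp [trF, x0]
  · field_simp
    ring
  · field_simp
    ring

/-- The norm in terms of coordinates: the class of the norm determines the orbit. -/
theorem exists_move_vm {v : O F} {β : F} (hT : T8 v = 1) (hN : N8 v = β)
    (hβ : ∀ c : F, c ^ 2 + c ≠ β) : ∃ h ∈ G2 F, act h v = vm β := by
  classical
  have h2 : (2 : F) = 0 := two_zero
  have hneg : ∀ c : F, -c = c := fun c => by linear_combination (-c) * h2
  have hβ0 : β ≠ 0 := by
    intro h
    apply hβ 0
    simp [h]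
  have hv7 : v 7 = 1 + v 0 := by
    simp only [T8] at hT
    linear_combination hT - v 0 * h2
  have hdot : v 1 * v 4 + v 2 * v 5 + v 3 * v 6 ≠ 0 := by
    intro h
    apply hβ (v 0)
    simp only [N8] at hN
    rw [h, hv7] at hN
    rw [← hN]
    ring
  -- an idempotent with `T(ve) = 0`
  obtain ⟨z, hz⟩ : ∃ z : Fin 3 → F, v 1 * z 0 + v 2 * z 1 + v 3 * z 2 = v 0 := by
    by_cases c1 : v 1 = 0
    · by_cases c2 : v 2 = 0
      · have c3 : v 3 ≠ 0 := by
          intro c3
          apply hdot
          simp [c1, c2, c3]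
        refine ⟨![0, 0, v 0 / v 3], ?_⟩
        simp [c1, c2]
        field_simp
      · refine ⟨![0, v 0 / v 2, 0], ?_⟩
        simp [c1]
        field_simp
    · refine ⟨![v 0 / v 1, 0, 0], ?_⟩
      simp
      field_simp
  let e : O F := ![1, 0, 0, 0, z 0, z 1, z 2, 0]
  have hTe : T8 e = 1 := by simp [e, T8]
  have hNe : N8 e = 0 := by simp [e, N8]
  obtain ⟨h₁, hh₁, hh₁e⟩ := exists_move_idem hTe hNe
  set v₁ := act h₁ v with hv₁
  have hTv₁ : T8 v₁ = 1 := by rw [hv₁, T8_act hh₁, hT]
  have hNv₁ : N8 v₁ = β := by rw [hv₁, N8_act hh₁, hN]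
  -- the first coordinate vanishes
  have hv₁0 : v₁ 0 = 0 := by
    have e1 := B8_act hh₁ v (one8 - e)
    rw [act_sub, act_one8 hh₁, hh₁e, ← hv₁] at e1
    have e2 : B8 v (one8 - e) = v 0 + (v 1 * z 0 + v 2 * z 1 + v 3 * z 2) := by
      simp [B8, one8, e]
      ring
    have e3 : B8 v₁ (one8 - e0) = v₁ 0 := by
      simp [B8, one8, e0]
    rw [e2, e3, hz] at e1
    rw [e1]
    linear_combination v 0 * h2
  have hv₁7 : v₁ 7 = 1 := by
    simp only [T8, hv₁0, zero_add] at hTv₁
    exact hTv₁
  have hdot₁ : v₁ 1 * v₁ 4 + v₁ 2 * v₁ 5 + v₁ 3 * v₁ 6 = β := by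
    simp only [N8, hv₁0, zero_mul, zero_sub] at hNv₁
    rw [hneg] at hNv₁
    exact hNv₁
  -- move the first vector
  have hne : (uv (zA F v₁) : O F) ≠ 0 := by
    intro h
    have h1 : v₁ 1 = 0 := by simpa [uv] using congrFun h 1
    have h2' : v₁ 2 = 0 := by simpa [uv] using congrFun h 2
    have h3 : v₁ 3 = 0 := by simpa [uv] using congrFun h 3
    rw [h1, h2', h3] at hdot₁
    apply hβ0
    rw [← hdot₁]
    ring
  obtain ⟨h₂, hh₂, hh₂e, hh₂x⟩ := exists_move_uv (x := uv (zA F v₁)) (by simp [uv]) (by simp [uv]) (by simp [uv])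
    (by simp [uv]) (by simp [uv]) hne
  obtain ⟨A, hdet, hAC, hA⟩ := stab_e0 hh₂ hh₂e
  set v₂ := act h₂ v₁ with hv₂
  have hzA : zA F v₂ = ![1, 0, 0] := by
    have e1 : zA F (uv (zA F v₁)) = zA F v₁ := by
      funext i
      fin_cases i <;> simp [uv]
    have e2 := hA (uv (zA F v₁))
    rw [hh₂x] at e2
    have e3 := bk_apply_zA A (cofM A) (uv (zA F v₁))
    rw [← e2, e1] at e3
    rw [hv₂, hA, bk_apply_zA, ← e3]
    funext i
    fin_cases i <;> simp [x0]
  have hv₂1 : v₂ 1 = 1 ∧ v₂ 2 = 0 ∧ v₂ 3 = 0 :=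
    ⟨by simpa using congrFun hzA 0, by simpa using congrFun hzA 1, by simpa using congrFun hzA 2⟩
  have hv₂0 : v₂ 0 = 0 := by rw [hv₂, hA, bk_apply_0, hv₁0]
  have hv₂7 : v₂ 7 = 1 := by rw [hv₂, hA, bk_apply_7, hv₁7]
  have hv₂4 : v₂ 4 = β := by
    have e1 : N8 v₂ = β := by rw [hv₂, N8_act hh₂, hNv₁]
    simp only [N8, hv₂0, hv₂1.1, hv₂1.2.1, hv₂1.2.2] at e1
    rw [← hneg β, ← e1]
    ring
  -- kill the other coordinates
  refine ⟨trG 0 1 (by decide) (v₂ 5 / β) * trG 0 2 (by decide) (v₂ 6 / β) * h₂ * h₁,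
    Subgroup.mul_mem _ (Subgroup.mul_mem _ (Subgroup.mul_mem _ (trG_mem _ _ _ _) (trG_mem _ _ _ _)) hh₂) hh₁, ?_⟩
  rw [act_mul, act_mul, ← hv₁, ← hv₂, act_mul, trG_act, trG_act]
  funext i
  fin_cases i <;> simp [trF, vm, hv₂0, hv₂1.1, hv₂1.2.1, hv₂1.2.2, hv₂7, hv₂4]
  · field_simp
    ring
  · field_simp
    ring

/-- The stabilizer of the subalgebra `F[w]` for `w` of trace one. -/
def stabV (w : O F) : Subgroup (G2 F) where
  carrier := {h | act (h : GL (Fin 8) F) w = w ∨ act (h : GL (Fin 8) F) w = w + one8}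
  mul_mem' := by
    rintro ⟨a, ha⟩ ⟨b, hb⟩ h1 h2
    have h11 : act a (w + one8) = act a w + one8 := by rw [act_add, act_one8 ha]
    change act a w = w ∨ act a w = w + one8 at h1
    change act b w = w ∨ act b w = w + one8 at h2
    change act (a * b) w = w ∨ act (a * b) w = w + one8
    rw [act_mul]
    rcases h2 with h2 | h2 <;> rw [h2]
    · exact h1
    · rw [h11]
      rcases h1 with h1 | h1 <;> rw [h1]
      · exact Or.inr rfl
      · left
        funext i
        simp only [Pi.add_apply]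
        have : (2 : F) = 0 := two_zero
        linear_combination (one8 i) * this
  one_mem' := by
    left
    exact act_one _
  inv_mem' := by
    rintro ⟨a, ha⟩ h1
    change act a w = w ∨ act a w = w + one8 at h1
    change act a⁻¹ w = w ∨ act a⁻¹ w = w + one8
    have hi : a⁻¹ ∈ G2 F := Subgroup.inv_mem _ ha
    rcases h1 with h1 | h1
    · left
      conv_lhs => rw [← h1]
      exact act_inv_act _ _
    · right
      have e : w = act a⁻¹ (w + one8) := by
        conv_rhs => rw [← h1]
        exact (act_inv_act _ _).symm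
      rw [act_add, act_one8 hi] at e
      have he : act a⁻¹ w = w - one8 := by
        nth_rewrite 2 [e]
        abel
      rw [he]
      funext i
      simp only [Pi.add_apply, Pi.sub_apply]
      have : (2 : F) = 0 := two_zero
      linear_combination (-one8 i) * this

theorem mem_stabV {w : O F} {h : G2 F} :
    h ∈ stabV w ↔ act (h : GL (Fin 8) F) w = w ∨ act (h : GL (Fin 8) F) w = w + one8 := Iff.rfl

/-- Conjugating by an automorphism moving `v` to `w`. -/
theorem conj_mem_stabV {g h : G2 F} {v w : O F}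
    (hv : act (g : GL (Fin 8) F) v = v ∨ act (g : GL (Fin 8) F) v = v + one8)
    (hw : act (h : GL (Fin 8) F) v = w) : h * g * h⁻¹ ∈ stabV w := by
  rw [mem_stabV]
  have e0' : act ((h * g * h⁻¹ : G2 F) : GL (Fin 8) F) w = act (h : GL (Fin 8) F) (act (g : GL (Fin 8) F) v) := by
    simp only [Subgroup.coe_mul, Subgroup.coe_inv, act_mul]
    rw [← hw, act_inv_act]
  rw [e0']
  rcases hv with hv | hv
  · left
    rw [hv, hw]
  · right
    rw [hv, act_add, act_one8 h.2, hw]

end Two

/-- Normal 2-covering of `G₂(2^a)`. -/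
theorem cover2 {F : Type} [Field F] [Fintype F] (a : ℕ) (ha : 2 ≤ a) (hF : Fintype.card F = 2 ^ a) :
    ∃ H K : Subgroup (Cfsg.Lie.G2 F), H ≠ ⊤ ∧ K ≠ ⊤ ∧
      ∀ g : (Cfsg.Lie.G2 F), ∃ x : (Cfsg.Lie.G2 F), x * g * x⁻¹ ∈ H ∨ x * g * x⁻¹ ∈ K := by
  classical
  -- characteristic two
  have : CharP F 2 := by
    obtain ⟨p, hp⟩ := CharP.exists F
    have := hp
    obtain ⟨n, hpp, hn⟩ := FiniteField.card F p
    have hdvd : p ∣ 2 ^ a := by
      rw [← hF, hn]
      exact dvd_pow_self p n.ne_zero
    have h2 : p = 2 := (Nat.prime_dvd_prime_iff_eq hpp Nat.prime_two).mp (hpp.dvd_of_dvd_pow hdvd)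
    rw [h2] at hp
    exact hp
  have h2 : (2 : F) = 0 := two_zero
  -- the Artin-Schreier map
  let P : F →+ F :=
    { toFun := fun c => c ^ 2 + c
      map_zero' := by simp
      map_add' := fun x y => by
        linear_combination (x * y) * h2 }
  have hP : ∀ c, P c = c ^ 2 + c := fun c => rfl
  have hker : Nat.card P.ker = 2 := by
    have : (P.ker : Set F) = {0, 1} := by
      ext c
      simp only [SetLike.mem_coe, AddMonoidHom.mem_ker, hP, Set.mem_insert_iff, Set.mem_singleton_iff]
      constructor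
      · intro h
        have h3 : c * (c + 1) = 0 := by linear_combination h
        rcases mul_eq_zero.mp h3 with h4 | h4
        · exact Or.inl h4
        · right
          linear_combination h4 - h2
      · rintro (rfl | rfl)
        · simp
        · linear_combination h2
    have e : Nat.card P.ker = Nat.card ((P.ker : Set F)) := rfl
    rw [e, this, Nat.card_coe_set_eq, Set.ncard_pair zero_ne_one]
  have hidx : P.range.index = 2 := by
    have h3 := AddSubgroup.index_ker P
    have h4 := P.ker.card_mul_index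
    rw [hker, h3] at h4
    have h5 := P.range.card_mul_index
    have h6 : Nat.card F = 2 ^ a := by rw [Nat.card_eq_fintype_card, hF]
    rw [h6] at h4 h5
    have h7 : 0 < Nat.card P.range := by
      have : 0 < 2 ^ a := by positivity
      by_contra h8
      have h9 : Nat.card P.range = 0 := by omega
      rw [h9, zero_mul] at h5
      omega
    have h8 : Nat.card P.range * P.range.index = Nat.card P.range * 2 := by
      rw [h5, ← h4]
      ring
    exact Nat.eq_of_mul_eq_mul_left h7 h8
  have hneg : ∀ c : F, -c = c := fun c => by linear_combination (-c) * h2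
  obtain ⟨b0, hb0⟩ : ∃ b0 : F, ∀ c : F, c ^ 2 + c ≠ b0 := by
    by_contra hcon
    push Not at hcon
    have htop : P.range = ⊤ := by
      rw [eq_top_iff]
      intro x _
      obtain ⟨c, hc⟩ := hcon x
      exact ⟨c, hc⟩
    rw [htop, AddSubgroup.index_top] at hidx
    omega
  have hclass : ∀ β : F, (∀ c : F, c ^ 2 + c ≠ β) → ∃ c : F, c ^ 2 + c = β + b0 := by
    intro β hβ
    obtain ⟨s, hs⟩ := AddSubgroup.index_eq_two_iff.mp hidx
    have key : ∀ b : F, (∀ c : F, c ^ 2 + c ≠ b) → b + s ∈ P.range := by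
      intro b hb
      rcases hs b with ⟨h3, _⟩ | ⟨h3, h4⟩
      · exact h3
      · exfalso
        obtain ⟨c, hc⟩ := h3
        exact hb c hc
    have h3 := P.range.add_mem (key β hβ) (key b0 hb0)
    obtain ⟨c, hc⟩ := h3
    refine ⟨c, ?_⟩
    rw [← hP, hc]
    linear_combination s * h2
  have hshift : ∀ (g : G2 F) (v : O F) (c : F), (act (g : GL (Fin 8) F) v = v ∨ act (g : GL (Fin 8) F) v = v + one8) →
      (act (g : GL (Fin 8) F) (v + c • one8) = v + c • one8 ∨
        act (g : GL (Fin 8) F) (v + c • one8) = v + c • one8 + one8) := by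
    intro g v c hv
    have e : act (g : GL (Fin 8) F) (v + c • one8) = act (g : GL (Fin 8) F) v + c • one8 := by
      rw [act_add, act_smul, act_one8 g.2]
    rw [e]
    rcases hv with hv | hv
    · left
      rw [hv]
    · right
      rw [hv]
      abel
  refine ⟨stabV e0, stabV (vm b0), ?_, ?_, ?_⟩
  · intro hH
    have hm : (⟨psiG ![1, 0, 0], psiG_mem _⟩ : G2 F) ∈ stabV e0 := by
      rw [hH]
      exact Subgroup.mem_top _
    rw [mem_stabV] at hm
    simp only at hm
    rw [psiG_act] at hm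
    rcases hm with h | h
    · have := congrFun h 1
      simp [psiF, e0] at this
    · have := congrFun h 1
      simp [psiF, e0, one8] at this
  · intro hK
    obtain ⟨t, ht⟩ : ∃ t : F, t ∉ ({0, b0⁻¹} : Finset F) := by
      by_contra hcon
      push Not at hcon
      have h3 : Fintype.card F ≤ ({0, b0⁻¹} : Finset F).card := by
        rw [← Finset.card_univ]
        exact Finset.card_le_card (fun x _ => hcon x)
      have h4 : ({0, b0⁻¹} : Finset F).card ≤ 2 := Finset.card_le_two
      have h5 : 4 ≤ 2 ^ a := by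
        calc 4 = 2 ^ 2 := by norm_num
          _ ≤ 2 ^ a := Nat.pow_le_pow_right (by norm_num) ha
      omega
    simp only [Finset.mem_insert, Finset.mem_singleton, not_or] at ht
    have hb00 : b0 ≠ 0 := by
      intro h
      apply hb0 0
      simp [h]
    have hm : (⟨psiG ![t, 0, 0], psiG_mem _⟩ : G2 F) ∈ stabV (vm b0) := by
      rw [hK]
      exact Subgroup.mem_top _
    rw [mem_stabV] at hm
    simp only at hm
    rw [psiG_act] at hm
    have e1 : psiF ![t, 0, 0] (vm b0) 0 = b0 * t := by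
      simp [psiF, vm, hneg]
    rcases hm with h | h
    · have := congrFun h 0
      rw [e1] at this
      simp [vm] at this
      rcases this with h3 | h3
      · exact hb00 h3
      · exact ht.1 h3
    · have := congrFun h 0
      rw [e1] at this
      simp [vm, one8] at this
      apply ht.2
      field_simp
      rw [mul_comm]
      exact this
  · intro g
    obtain ⟨v, hT, hv⟩ := exists_inv_elt g.2
    by_cases hs : ∃ c : F, c ^ 2 + c = N8 v
    · obtain ⟨c, hc⟩ := hs
      have hT' : T8 (v + c • one8) = 1 := by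
        rw [T8_add_sc, hT, h2]
        ring
      have hN' : N8 (v + c • one8) = 0 := by
        rw [N8_add_sc, hT, ← hc]
        linear_combination (c ^ 2 + c) * h2
      obtain ⟨h, hh, he⟩ := exists_move_idem hT' hN'
      refine ⟨⟨h, hh⟩, Or.inl (conj_mem_stabV (hshift g v c hv) he)⟩
    · push Not at hs
      obtain ⟨c, hc⟩ := hclass _ hs
      have hT' : T8 (v + c • one8) = 1 := by
        rw [T8_add_sc, hT, h2]
        ring
      have hN' : N8 (v + c • one8) = b0 := by
        rw [N8_add_sc, hT]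
        linear_combination hc + N8 v * h2
      obtain ⟨h, hh, he⟩ := exists_move_vm hT' hN' hb0
      refine ⟨⟨h, hh⟩, Or.inr (conj_mem_stabV (hshift g v c hv) he)⟩

end Cfsg.Agent.Lib.Cover2.G2
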