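/-
Normal 2-coverings of PSL_2, PSL_3, PSL_4: stabilizer of a point and centralizer of a field element.
-/
import Mathlib
import Cfsg.Agent.Lib.Cover2.Basic
import Cfsg.Prelude.Def_Classical

set_option autoImplicit false

namespace Cfsg.Agent.Lib.Cover2.PSL

open Polynomial Matrix Module
open scoped MatrixGroups

variable {F : Type*} [Field F] [Fintype F]

theorem finrank_adjoinRoot (h : F[X]) [Fact (Irreducible h)] :
    finrank F (AdjoinRoot h) = h.natDegree := by
  have hh0 : h ≠ 0 := (Fact.out : Irreducible h).ne_zero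
  rw [(AdjoinRoot.powerBasis hh0).finrank, AdjoinRoot.powerBasis_dim]

/-- An operator annihilated by the irreducible `h` gives coordinates over `F[X]/h`. -/
theorem exists_coords (h : F[X]) [Fact (Irreducible h)] {V : Type*} [AddCommGroup V] [Module F V]
    [Module.Finite F V] (k : ℕ) (hk : finrank F V = h.natDegree * k) (θ : Module.End F V)
    (hθ : aeval θ h = 0) :
    ∃ φ : (Fin k → AdjoinRoot h) ≃ₗ[F] V, ∀ x, φ (AdjoinRoot.root h • x) = θ (φ x) := by
  classical
  have hh0 : h ≠ 0 := (Fact.out : Irreducible h).ne_zero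
  let ρ : AdjoinRoot h →+* Module.End F V :=
    Ideal.Quotient.lift (Ideal.span {h}) ((aeval θ : F[X] →ₐ[F] Module.End F V) : F[X] →+* Module.End F V)
      (by
        intro p hp
        obtain ⟨q, rfl⟩ := Ideal.mem_span_singleton.1 hp
        change aeval θ (h * q) = 0
        rw [map_mul, hθ, zero_mul])
  have hρmk : ∀ p : F[X], ρ (AdjoinRoot.mk h p) = aeval θ p := fun p => rfl
  letI : Module (AdjoinRoot h) V := Module.compHom V ρ
  have hsmul : ∀ (r : AdjoinRoot h) (v : V), r • v = ρ r v := fun _ _ => rfl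
  have hρc : ∀ c : F, ρ (algebraMap F (AdjoinRoot h) c) = algebraMap F (Module.End F V) c := by
    intro c
    have : algebraMap F (AdjoinRoot h) c = AdjoinRoot.mk h (C c) := rfl
    rw [this, hρmk, aeval_C]
  haveI : IsScalarTower F (AdjoinRoot h) V := ⟨fun c r v => by
    rw [hsmul, hsmul, Algebra.smul_def, map_mul, hρc]
    simp [Module.End.mul_apply]⟩
  haveI : Module.Finite (AdjoinRoot h) V := Module.Finite.of_restrictScalars_finite F _ V
  have hpos : 0 < h.natDegree := (Fact.out : Irreducible h).natDegree_pos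
  have hk' : finrank (AdjoinRoot h) V = k := by
    have := Module.finrank_mul_finrank F (AdjoinRoot h) V
    rw [finrank_adjoinRoot, hk] at this
    exact Nat.eq_of_mul_eq_mul_left hpos this
  let b := Module.finBasisOfFinrankEq (AdjoinRoot h) V hk'
  let φE : (Fin k → AdjoinRoot h) ≃ₗ[AdjoinRoot h] V := b.equivFun.symm
  refine ⟨φE.restrictScalars F, fun x => ?_⟩
  change φE (AdjoinRoot.root h • x) = θ (φE x)
  rw [map_smul, hsmul]
  have : ρ (AdjoinRoot.root h) = θ := by
    have e : AdjoinRoot.root h = AdjoinRoot.mk h X := rfl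
    rw [e, hρmk, aeval_X]
  rw [this]

/-- Units of `F[X]/h`-linear maps of arbitrary `F`-determinant. -/
theorem exists_det_map (h : F[X]) [Fact (Irreducible h)] (k : ℕ) (hk : 0 < k) (c : F) :
    ∃ u : (Fin k → AdjoinRoot h) →ₗ[F] (Fin k → AdjoinRoot h), LinearMap.det u = c ∧
      ∀ x, u (AdjoinRoot.root h • x) = AdjoinRoot.root h • u x := by
  classical
  have hh0 : h ≠ 0 := (Fact.out : Irreducible h).ne_zero
  haveI : Module.Finite F (AdjoinRoot h) := (AdjoinRoot.powerBasis hh0).finite
  haveI : Finite (AdjoinRoot h) := Module.finite_of_finite F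
  obtain ⟨e, he⟩ := FiniteField.norm_surjective F (AdjoinRoot h) c
  let i0 : Fin k := ⟨0, hk⟩
  let d : Fin k → AdjoinRoot h := Function.update 1 i0 e
  let f : (Fin k → AdjoinRoot h) →ₗ[AdjoinRoot h] (Fin k → AdjoinRoot h) :=
    Matrix.toLin' (Matrix.diagonal d)
  refine ⟨f.restrictScalars F, ?_, fun x => ?_⟩
  · rw [LinearMap.det_restrictScalars, LinearMap.det_toLin', Matrix.det_diagonal, ← he]
    congr 1
    rw [Finset.prod_update_of_mem (Finset.mem_univ _)]
    simp
  · change f (AdjoinRoot.root h • x) = AdjoinRoot.root h • f x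
    rw [map_smul]



local notation "toM" => Cfsg.slToMat _ _

/-- The stabilizer of the line through `e`. -/
def lineStab {n : ℕ} (e : Fin n → F) (he : e ≠ 0) : Subgroup (SpecialLinearGroup (Fin n) F) where
  carrier := {A | ∃ c : F, toM A *ᵥ e = c • e}
  mul_mem' := by
    rintro A B ⟨a, ha⟩ ⟨b, hb⟩
    refine ⟨a * b, ?_⟩
    rw [map_mul, ← Matrix.mulVec_mulVec, hb, Matrix.mulVec_smul, ha, smul_smul, mul_comm]
  one_mem' := ⟨1, by simp⟩
  inv_mem' := by
    rintro A ⟨a, ha⟩
    have h1 : toM A⁻¹ * toM A = 1 := by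
      rw [← map_mul, inv_mul_cancel, map_one]
    have h2 : a • (toM A⁻¹ *ᵥ e) = e := by
      rw [← Matrix.mulVec_smul, ← ha, Matrix.mulVec_mulVec, h1, Matrix.one_mulVec]
    have ha0 : a ≠ 0 := by
      rintro rfl
      rw [zero_smul] at h2
      exact he h2.symm
    refine ⟨a⁻¹, ?_⟩
    rw [eq_inv_smul_iff₀ ha0]
    exact h2

/-- The centralizer of a matrix in SL. -/
def centSL {n : ℕ} (θ : Matrix (Fin n) (Fin n) F) : Subgroup (SpecialLinearGroup (Fin n) F) where
  carrier := {A | toM A * θ = θ * toM A}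
  mul_mem' := by
    intro A B ha hb
    simp only [Set.mem_ofPred_eq] at ha hb ⊢
    rw [map_mul, Matrix.mul_assoc, hb, ← Matrix.mul_assoc, ha, Matrix.mul_assoc]
  one_mem' := by simp
  inv_mem' := by
    intro A ha
    simp only [Set.mem_ofPred_eq] at ha ⊢
    have h1 : toM A⁻¹ * toM A = 1 := by
      rw [← map_mul, inv_mul_cancel, map_one]
    have h2 : toM A * toM A⁻¹ = 1 := by
      rw [← map_mul, mul_inv_cancel, map_one]
    calc toM A⁻¹ * θ = toM A⁻¹ * θ * (toM A * toM A⁻¹) := by rw [h2, Matrix.mul_one]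
      _ = toM A⁻¹ * (θ * toM A) * toM A⁻¹ := by simp only [Matrix.mul_assoc]
      _ = toM A⁻¹ * (toM A * θ) * toM A⁻¹ := by rw [ha]
      _ = (toM A⁻¹ * toM A) * θ * toM A⁻¹ := by simp only [Matrix.mul_assoc]
      _ = θ * toM A⁻¹ := by rw [h1, Matrix.one_mul]

theorem exists_SL_move {n : ℕ} (v e : Fin n → F) (hv : v ≠ 0) (he : e ≠ 0) :
    ∃ (X : SpecialLinearGroup (Fin n) F) (c : F), toM X *ᵥ v = c • e := by
  obtain ⟨X, hX⟩ := MulAction.exists_smul_eq (SpecialLinearGroup (Fin n) F)
    (Projectivization.mk F v hv) (Projectivization.mk F e he)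
  have h1 : toM X⁻¹ * toM X = 1 := by
    rw [← map_mul, inv_mul_cancel, map_one]
  have hne : toM X *ᵥ v ≠ 0 := by
    intro h0
    apply hv
    have := congrArg (fun w => toM X⁻¹ *ᵥ w) h0
    simpa [Matrix.mulVec_mulVec, h1] using this
  have h2 : X • Projectivization.mk F v hv = Projectivization.mk F (toM X *ᵥ v) hne := by
    rw [Projectivization.matrixSpecialLinearGroup_smul_def]
    exact Projectivization.smul_mk _ hv
  rw [h2] at hX
  obtain ⟨c, hc⟩ := (Projectivization.mk_eq_mk_iff' F _ _ _ he).1 hX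
  exact ⟨X, c, hc.symm⟩


/-- Main reduction: a fixed polynomial `h` such that every element without eigenvector commutes with
a root of `h`. -/
theorem cover2_of_theta (n k : ℕ) (h : F[X]) (hirr : Irreducible h) (hd : 2 ≤ h.natDegree)
    (hn : n = h.natDegree * k) (hk : 0 < k)
    (hg : ∀ g : SpecialLinearGroup (Fin n) F, (∀ (v : Fin n → F) (c : F), v ≠ 0 → toM g *ᵥ v ≠ c • v) →
      ∃ θ : Matrix (Fin n) (Fin n) F, toM g * θ = θ * toM g ∧ aeval θ h = 0) :
    Cover2 (ProjectiveSpecialLinearGroup (Fin n) F) := by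
  classical
  haveI : Fact (Irreducible h) := ⟨hirr⟩
  have hh0 : h ≠ 0 := hirr.ne_zero
  haveI : Module.Finite F (AdjoinRoot h) := (AdjoinRoot.powerBasis hh0).finite
  have hn2 : 2 ≤ n := by
    rw [hn]
    exact le_trans hd (Nat.le_mul_of_pos_right _ hk)
  let i0 : Fin n := ⟨0, by omega⟩
  let i1 : Fin n := ⟨1, by omega⟩
  have hi : i0 ≠ i1 := by simp [i0, i1, Fin.ext_iff]
  let e0 : Fin n → F := Pi.single i0 1
  have he0 : e0 ≠ 0 := by
    intro h0
    have := congrFun h0 i0
    simp [e0] at this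
  -- the model
  have hfr : finrank F (Fin k → AdjoinRoot h) = finrank F (Fin n → F) := by
    rw [Module.finrank_pi_fintype]
    simp [finrank_adjoinRoot, hn, mul_comm]
  let ψ : (Fin k → AdjoinRoot h) ≃ₗ[F] (Fin n → F) := LinearEquiv.ofFinrankEq _ _ hfr
  let mr : (Fin k → AdjoinRoot h) →ₗ[F] (Fin k → AdjoinRoot h) :=
    { toFun := fun x => AdjoinRoot.root h • x
      map_add' := smul_add _
      map_smul' := fun c x => smul_comm _ _ _ }
  have hmr : ∀ x, mr x = AdjoinRoot.root h • x := fun _ => rfl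
  let θ0L : Module.End F (Fin n → F) := ψ.toLinearMap ∘ₗ mr ∘ₗ ψ.symm.toLinearMap
  let θ0 : Matrix (Fin n) (Fin n) F := LinearMap.toMatrix' θ0L
  have hθ0 : ∀ v, θ0 *ᵥ v = θ0L v := fun v => by
    simp [θ0, LinearMap.toMatrix'_mulVec]
  have htoM : ∀ A : SpecialLinearGroup (Fin n) F, toM A⁻¹ * toM A = 1 ∧ toM A * toM A⁻¹ = 1 := by
    intro A
    constructor
    · rw [← map_mul, inv_mul_cancel, map_one]
    · rw [← map_mul, mul_inv_cancel, map_one]
  refine cover2_quotient _ (lineStab e0 he0) (centSL θ0) ?_ ?_ ?_ ?_ ?_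
  · -- centre in the stabilizer
    intro A hA
    obtain ⟨r, -, hr⟩ := Matrix.SpecialLinearGroup.mem_center_iff.1 hA
    refine ⟨r, ?_⟩
    change (A : Matrix (Fin n) (Fin n) F) *ᵥ e0 = r • e0
    rw [← hr]
    ext i
    simp [Matrix.scalar_apply, Matrix.mulVec_diagonal]
  · intro A hA
    obtain ⟨r, -, hr⟩ := Matrix.SpecialLinearGroup.mem_center_iff.1 hA
    change (A : Matrix (Fin n) (Fin n) F) * θ0 = θ0 * (A : Matrix (Fin n) (Fin n) F)
    rw [← hr]
    exact Matrix.scalar_commute r (fun _ => mul_comm _ _) θ0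
  · -- proper
    intro htop
    have hmem : Matrix.SpecialLinearGroup.transvection hi.symm (1 : F) ∈ lineStab e0 he0 := by
      rw [htop]; trivial
    obtain ⟨c, hc⟩ := hmem
    have h2 := Matrix.SpecialLinearGroup.transvection_smul_single_snd hi.symm (1 : F)
    have h3 : toM (Matrix.SpecialLinearGroup.transvection hi.symm (1 : F)) *ᵥ e0
        = (Matrix.SpecialLinearGroup.transvection hi.symm (1 : F)) • e0 := rfl
    rw [h3] at hc
    change _ • e0 = _ at hc
    have h4 : (Matrix.SpecialLinearGroup.transvection hi.symm (1 : F)) • e0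
        = Pi.single i0 1 + (1 : F) • Pi.single i1 1 := h2
    rw [h4] at hc
    have h1 := congrFun hc i1
    simp [e0, Pi.single_apply, hi.symm, hi] at h1
  · intro htop
    have hc : ∀ t : TransvectionStruct (Fin n) F, Commute t.toMatrix θ0 := by
      intro t
      have hmem : Matrix.SpecialLinearGroup.transvection t.hij t.c ∈ centSL θ0 := by
        rw [htop]; trivial
      have : toM (Matrix.SpecialLinearGroup.transvection t.hij t.c) = t.toMatrix := by
        rfl
      change toM _ * θ0 = θ0 * toM _ at hmem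
      rw [this] at hmem
      exact hmem
    obtain ⟨r, hr⟩ := Matrix.mem_range_scalar_of_commute_transvectionStruct hc
    have hall : ∀ x : Fin k → AdjoinRoot h, AdjoinRoot.root h • x = r • x := by
      intro x
      have h1 : θ0L (ψ x) = r • ψ x := by
        rw [← hθ0, ← hr]
        ext i
        simp [Matrix.scalar_apply, Matrix.mulVec_diagonal]
      have h2 : θ0L (ψ x) = ψ (AdjoinRoot.root h • x) := by
        simp [θ0L, hmr]
      rw [h2, ← map_smul] at h1
      exact ψ.injective h1
    have h1 := congrFun (hall (fun _ => 1)) ⟨0, hk⟩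
    simp only [Pi.smul_apply, smul_eq_mul, mul_one] at h1
    have h2 : AdjoinRoot.mk h (X - C r) = 0 := by
      rw [map_sub, AdjoinRoot.mk_X, h1]
      rw [AdjoinRoot.mk_C, Algebra.smul_def, mul_one]
      exact sub_self _
    rw [AdjoinRoot.mk_eq_zero] at h2
    have h3 := Polynomial.natDegree_le_of_dvd h2 (X_sub_C_ne_zero r)
    rw [natDegree_X_sub_C] at h3
    omega
  · intro g
    by_cases hev : ∃ (v : Fin n → F) (c : F), v ≠ 0 ∧ toM g *ᵥ v = c • v
    · obtain ⟨v, c, hv, hgv⟩ := hev
      obtain ⟨X, c', hX⟩ := exists_SL_move v e0 hv he0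
      have hc' : c' ≠ 0 := by
        rintro rfl
        apply hv
        have := congrArg (fun w => toM X⁻¹ *ᵥ w) hX
        simpa [Matrix.mulVec_mulVec, (htoM X).1] using this
      refine ⟨X, Or.inl ⟨c, ?_⟩⟩
      have h1 : toM X⁻¹ *ᵥ (c' • e0) = v := by
        rw [← hX, Matrix.mulVec_mulVec, (htoM X).1, Matrix.one_mulVec]
      have h2 : c' • (toM (X * g * X⁻¹) *ᵥ e0) = c' • (c • e0) := by
        rw [← Matrix.mulVec_smul, map_mul, map_mul, ← Matrix.mulVec_mulVec, h1, ← Matrix.mulVec_mulVec, hgv,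
          Matrix.mulVec_smul, hX, smul_comm]
      exact smul_right_injective _ hc' h2
    · have hev' : ∀ (v : Fin n → F) (c : F), v ≠ 0 → toM g *ᵥ v ≠ c • v := by
        intro v c hv hgv
        exact hev ⟨v, c, hv, hgv⟩
      obtain ⟨θ, hθg, hθh⟩ := hg g hev'
      have hθL : aeval (Matrix.toLin' θ) h = 0 := by
        have := Polynomial.aeval_algHom_apply (Matrix.toLinAlgEquiv' (R := F) (n := Fin n)).toAlgHom θ h
        have e : (Matrix.toLinAlgEquiv' (R := F) (n := Fin n)).toAlgHom θ = Matrix.toLin' θ := rfl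
        rw [e] at this
        rw [this, hθh, map_zero]
      obtain ⟨φ, hφ⟩ := exists_coords h k (V := Fin n → F) (by simp [hn]) (Matrix.toLin' θ) hθL
      let P : (Fin n → F) ≃ₗ[F] (Fin n → F) := φ.symm.trans ψ
      have hP : ∀ v, P (θ *ᵥ v) = θ0L (P v) := by
        intro v
        have h1 := hφ (φ.symm v)
        rw [LinearEquiv.apply_symm_apply, Matrix.toLin'_apply] at h1
        have h2 : φ.symm (θ *ᵥ v) = AdjoinRoot.root h • φ.symm v := by
          rw [← h1, LinearEquiv.symm_apply_apply]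
        change ψ (φ.symm (θ *ᵥ v)) = ψ (mr (ψ.symm (ψ (φ.symm v))))
        rw [h2, LinearEquiv.symm_apply_apply, hmr]
      have hdet : LinearMap.det (P : (Fin n → F) →ₗ[F] (Fin n → F)) ≠ 0 := by
        exact (LinearEquiv.isUnit_det' P).ne_zero
      obtain ⟨uE, huE, huc⟩ := exists_det_map h k hk (LinearMap.det (P : (Fin n → F) →ₗ[F] (Fin n → F)))⁻¹
      let U : Module.End F (Fin n → F) := ψ.toLinearMap ∘ₗ uE ∘ₗ ψ.symm.toLinearMap
      have hUdet : LinearMap.det U = (LinearMap.det (P : (Fin n → F) →ₗ[F] (Fin n → F)))⁻¹ := by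
        rw [← huE]
        exact LinearMap.det_conj uE ψ
      have hU : ∀ v, U (θ0L v) = θ0L (U v) := by
        intro v
        simp only [U, θ0L, LinearMap.comp_apply, LinearEquiv.coe_coe, LinearEquiv.symm_apply_apply, hmr]
        rw [huc]
      let W : Module.End F (Fin n → F) := U ∘ₗ (P : (Fin n → F) →ₗ[F] (Fin n → F))
      have hWdet : LinearMap.det W = 1 := by
        rw [LinearMap.det_comp, hUdet]
        exact inv_mul_cancel₀ hdet
      have hWm : (LinearMap.toMatrix' W).det = 1 := by
        rw [LinearMap.det_toMatrix']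
        exact hWdet
      let X : SpecialLinearGroup (Fin n) F := ⟨LinearMap.toMatrix' W, hWm⟩
      have hXv : ∀ v, toM X *ᵥ v = W v := fun v => by
        change LinearMap.toMatrix' W *ᵥ v = W v
        rw [LinearMap.toMatrix'_mulVec]
      have hXθ : toM X * θ = θ0 * toM X := by
        apply Matrix.toLin'.injective
        ext1 i
        ext j
        simp only [Matrix.toLin'_mul, LinearMap.comp_apply]
        have e1 : ∀ (A : Matrix (Fin n) (Fin n) F) v, Matrix.toLin' A v = A *ᵥ v := fun A v => Matrix.toLin'_apply A v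
        simp only [e1, hXv, hθ0]
        have : W (θ *ᵥ Pi.single i 1) = θ0L (W (Pi.single i 1)) := by
          simp only [W, LinearMap.comp_apply, LinearEquiv.coe_coe]
          rw [hP, hU]
        simp only [LinearMap.coe_single, LinearMap.coe_comp, Function.comp_apply]
        rw [this]
      refine ⟨X, Or.inr ?_⟩
      change toM (X * g * X⁻¹) * θ0 = θ0 * toM (X * g * X⁻¹)
      have hXθ' : θ * toM X⁻¹ = toM X⁻¹ * θ0 := by
        calc θ * toM X⁻¹ = (toM X⁻¹ * toM X) * θ * toM X⁻¹ := by rw [(htoM X).1, Matrix.one_mul]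
          _ = toM X⁻¹ * (toM X * θ) * toM X⁻¹ := by simp only [Matrix.mul_assoc]
          _ = toM X⁻¹ * (θ0 * toM X) * toM X⁻¹ := by rw [hXθ]
          _ = toM X⁻¹ * θ0 * (toM X * toM X⁻¹) := by simp only [Matrix.mul_assoc]
          _ = toM X⁻¹ * θ0 := by rw [(htoM X).2, Matrix.mul_one]
      rw [map_mul, map_mul]
      calc toM X * toM g * toM X⁻¹ * θ0 = toM X * toM g * (toM X⁻¹ * θ0) := by simp only [Matrix.mul_assoc]
        _ = toM X * toM g * (θ * toM X⁻¹) := by rw [hXθ']
        _ = toM X * (toM g * θ) * toM X⁻¹ := by simp only [Matrix.mul_assoc]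
        _ = toM X * (θ * toM g) * toM X⁻¹ := by rw [hθg]
        _ = (toM X * θ) * toM g * toM X⁻¹ := by simp only [Matrix.mul_assoc]
        _ = (θ0 * toM X) * toM g * toM X⁻¹ := by rw [hXθ]
        _ = θ0 * (toM X * toM g * toM X⁻¹) := by simp only [Matrix.mul_assoc]


theorem exists_theta_of_dvd {n : ℕ} (g : Matrix (Fin n) (Fin n) F) (h y0 : F[X])
    (hP : g.charpoly ∣ (h.comp y0) ^ 2) :
    ∃ θ : Matrix (Fin n) (Fin n) F, g * θ = θ * g ∧ aeval θ h = 0 := by
  classical
  have h2 : 2 ≤ Fintype.card F := Fintype.one_lt_card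
  let r := aeval g y0
  have hr : (aeval r h) ^ 2 = 0 := by
    have e : aeval r h = aeval g (h.comp y0) := (Polynomial.aeval_comp g).symm
    rw [e, ← map_pow]
    obtain ⟨c, hc⟩ := hP
    rw [hc, map_mul, Matrix.aeval_self_charpoly, zero_mul]
  refine ⟨r ^ Fintype.card F, ?_, ?_⟩
  · have hc : Commute g r := by
      rw [show r = aeval g y0 from rfl, aeval_eq_sum_range]
      exact Commute.sum_right _ _ _ (fun i _ => ((Commute.refl g).pow_right i).smul_right _)
    exact (hc.pow_right _).eq
  · rw [← Polynomial.expand_aeval, FiniteField.expand_card, map_pow]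
    obtain ⟨m, hm⟩ : ∃ m, Fintype.card F = m + 2 := ⟨Fintype.card F - 2, by omega⟩
    rw [hm, pow_add, hr, mul_zero]

theorem charpoly_no_root {n : ℕ} (g : Matrix (Fin n) (Fin n) F)
    (hg : ∀ (v : Fin n → F) (c : F), v ≠ 0 → g *ᵥ v ≠ c • v) (c : F) : ¬ g.charpoly.IsRoot c := by
  classical
  intro hc
  rw [IsRoot, Matrix.eval_charpoly] at hc
  obtain ⟨v, hv, hv2⟩ := Matrix.exists_mulVec_eq_zero_iff.2 hc
  apply hg v c hv
  have : (Matrix.scalar (Fin n) c - g) *ᵥ v = 0 := hv2
  rw [Matrix.sub_mulVec, sub_eq_zero] at this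
  rw [← this]
  ext i
  simp [Matrix.scalar_apply, Matrix.mulVec_diagonal]


/-- `PSL_2` and `PSL_3`: the characteristic polynomial is irreducible. -/
theorem cover2_small (n : ℕ) (hn : n = 2 ∨ n = 3) : Cover2 (ProjectiveSpecialLinearGroup (Fin n) F) := by
  classical
  have hn0 : n ≠ 0 := by omega
  obtain ⟨h, hirr, -, hdeg⟩ := exists_irreducible_natDegree F n hn0
  refine cover2_of_theta n 1 h hirr (by omega) (by omega) (by omega) ?_
  intro g hg
  have hP := charpoly_no_root (toM g) hg
  have hmon : (toM g).charpoly.Monic := Matrix.charpoly_monic _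
  have hd : (toM g).charpoly.natDegree = n := by
    rw [Matrix.charpoly_natDegree_eq_dim]; simp
  have hir : Irreducible (toM g).charpoly := by
    rw [Polynomial.Monic.irreducible_iff_roots_eq_zero_of_degree_le_three hmon (by omega) (by omega)]
    rw [Multiset.eq_zero_iff_forall_notMem]
    intro c hc
    exact hP c (Polynomial.isRoot_of_mem_roots hc)
  obtain ⟨a, ha⟩ := exists_comp_dvd hirr hir (by rw [hdeg, hd])
  exact exists_theta_of_dvd _ h a (ha.trans (dvd_pow_self _ two_ne_zero))

/-- `PSL_4`: the characteristic polynomial has even-degree factors. -/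
theorem cover2_four : Cover2 (ProjectiveSpecialLinearGroup (Fin 4) F) := by
  classical
  obtain ⟨h, hirr, -, hdeg⟩ := exists_irreducible_natDegree F 2 (by omega)
  refine cover2_of_theta 4 2 h hirr (by omega) (by omega) (by omega) ?_
  intro g hg
  have hP := charpoly_no_root (toM g) hg
  have hmon : (toM g).charpoly.Monic := Matrix.charpoly_monic _
  have hd : (toM g).charpoly.natDegree = 4 := by
    rw [Matrix.charpoly_natDegree_eq_dim]; simp
  set P := (toM g).charpoly with hPdef
  obtain ⟨p, hp, r, hr⟩ := Polynomial.exists_irreducible_of_natDegree_pos (f := P) (by omega)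
  have hP0 : P ≠ 0 := hmon.ne_zero
  have hr0 : r ≠ 0 := by
    rintro rfl
    simp at hr
    exact hP0 hr
  have hp0 : p ≠ 0 := hp.ne_zero
  have hsum : p.natDegree + r.natDegree = 4 := by
    rw [← hd, hr, natDegree_mul hp0 hr0]
  have hp1 : p.natDegree ≠ 1 := by
    intro h1
    obtain ⟨c, hc⟩ := Polynomial.exists_root_of_degree_eq_one (by rw [degree_eq_natDegree hp0, h1]; rfl)
    exact hP c (by rw [hr, IsRoot, eval_mul, hc.eq_zero, zero_mul])
  have hr1 : r.natDegree ≠ 1 := by
    intro h1
    obtain ⟨c, hc⟩ := Polynomial.exists_root_of_degree_eq_one (by rw [degree_eq_natDegree hr0, h1]; rfl)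
    exact hP c (by rw [hr, IsRoot, eval_mul, hc.eq_zero, mul_zero])
  have hpos := hp.natDegree_pos
  by_cases hr4 : r.natDegree = 0
  · -- `P` is associated to `p`
    have hpd : p.natDegree = 4 := by omega
    obtain ⟨a, ha⟩ := exists_comp_dvd hirr hp (by rw [hdeg, hpd]; norm_num)
    refine exists_theta_of_dvd _ h a ?_
    have hu : IsUnit r := by
      rw [Polynomial.isUnit_iff_degree_eq_zero, degree_eq_natDegree hr0, hr4]; rfl
    have : P ∣ p := by
      have h5 : p * r ∣ p := (IsUnit.mul_right_dvd hu).2 dvd_rfl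
      rwa [← hr] at h5
    exact (this.trans ha).trans (dvd_pow_self _ two_ne_zero)
  · have hpd : p.natDegree = 2 := by omega
    have hrd : r.natDegree = 2 := by omega
    have hri : Irreducible r := by
      apply Polynomial.irreducible_of_degree_le_three_of_not_isRoot
      · rw [hrd]; decide
      · intro c hc
        exact hP c (by rw [hr, IsRoot, eval_mul, hc.eq_zero, mul_zero])
    obtain ⟨a, ha⟩ := exists_comp_dvd hirr hp (by rw [hdeg, hpd])
    obtain ⟨b, hb⟩ := exists_comp_dvd hirr hri (by rw [hdeg, hrd])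
    by_cases hcop : p ∣ r
    · -- `r` associated to `p`
      have hass : Associated p r := hp.associated_of_dvd hri hcop
      refine exists_theta_of_dvd _ h a ?_
      rw [← hPdef, hr, pow_two]
      exact mul_dvd_mul ha (hass.symm.dvd.trans ha)
    · have hc : IsCoprime p r := (hp.coprime_iff_not_dvd).2 hcop
      obtain ⟨u, v, huv⟩ := hc
      -- `y ≡ a mod p`, `y ≡ b mod r`
      let y := a * (v * r) + b * (u * p)
      refine exists_theta_of_dvd _ h y ?_
      have h1 : p ∣ y - a := ⟨u * b - u * a, by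
        have : v * r = 1 - u * p := by rw [← huv]; ring
        simp only [y, this]; ring⟩
      have h2 : r ∣ y - b := ⟨v * a - v * b, by
        have : u * p = 1 - v * r := by rw [← huv]; ring
        simp only [y, this]; ring⟩
      have h3 : ∀ (q w z : F[X]), q ∣ w - z → q ∣ h.comp z → q ∣ h.comp w := by
        intro q w z hq hz
        have : w - z ∣ h.comp w - h.comp z := by
          have := Polynomial.sub_dvd_eval_sub w z (h.map C)
          simpa [Polynomial.comp, Polynomial.eval₂_eq_eval_map] using this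
        have h4 := (hq.trans this)
        have := dvd_add h4 hz
        simpa using this
      rw [← hPdef, hr, pow_two]
      exact mul_dvd_mul (h3 _ _ _ h1 ha) (h3 _ _ _ h2 hb)

end Cfsg.Agent.Lib.Cover2.PSL
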