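/-
`PSU₃(3 ^ a)` is the union of the conjugates of two proper subgroups: the stabiliser of a nonisotropic point and the
normaliser of a torus of order `q ^ 2 - q + 1`, given as the stabiliser of a self-adjoint root of an Artin--Schreier cubic
up to translations.
-/
import Mathlib
import Cfsg.Agent.Lib.Cover2.PSU3.CaseB
import Cfsg.Agent.Lib.Cover2.PSU3.CaseC
import Cfsg.Agent.Lib.Classical.Herm.Simple

set_option autoImplicit false
set_option linter.unusedSectionVars false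
set_option linter.unusedSimpArgs false
set_option linter.unusedVariables false

open scoped Matrix
open Polynomial Cfsg
open Cfsg.Agent.Lib.Classical.Herm.Basic Cfsg.Agent.Lib.Classical.Herm.GU
open Cfsg.Agent.Lib.Classical.Herm.SU Cfsg.Agent.Lib.Classical.Herm.Form
open Cfsg.Agent.Lib.Classical.Herm.Tv

namespace Cfsg.Agent.Lib.Cover2.PSU3

variable {F : Type*} [Field F] [Fintype F] {q : ℕ}

local notation "M3" => Matrix (Fin 3) (Fin 3) F
local notation "⟪" x ", " y "⟫" => hermForm _ _ q x y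

/-- The first basis vector. -/
def e0 (F : Type*) [Field F] : Fin 3 → F := Pi.single 0 1

theorem e0_ne_zero : e0 F ≠ 0 := by
  intro h
  have := congrFun h 0
  simp [e0] at this

/-- The stabiliser of the line through the first basis vector. -/
def stabLine (F : Type*) [Field F] [Fintype F] (q : ℕ) : Subgroup (SU 3 F q) where
  carrier := {x | ∃ μ : F, act x (e0 F) = μ • e0 F}
  mul_mem' := by
    rintro x y ⟨μ, hμ⟩ ⟨μ', hμ'⟩
    refine ⟨μ' * μ, ?_⟩
    rw [act_mul, hμ', act_smul, hμ, smul_smul]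
  one_mem' := ⟨1, by simp⟩
  inv_mem' := by
    rintro x ⟨μ, hμ⟩
    have hμ0 : μ ≠ 0 := by
      rintro rfl
      rw [zero_smul] at hμ
      exact act_ne_zero x e0_ne_zero hμ
    refine ⟨μ⁻¹, ?_⟩
    have h1 : act x⁻¹ (μ • e0 F) = e0 F := by
      rw [← hμ, act_inv_act]
    rw [act_smul] at h1
    rw [← h1, smul_smul, inv_mul_cancel₀ hμ0, one_smul, h1]

/-- The stabiliser of `ω` up to translations. -/
def stabRoot (ω : M3) : Subgroup (SU 3 F q) where
  carrier := {x | ∃ k : F, mat x * ω = (ω + k • 1) * mat x}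
  mul_mem' := by
    rintro x y ⟨k, hk⟩ ⟨k', hk'⟩
    refine ⟨k + k', ?_⟩
    rw [mat_mul, mul_assoc, hk', ← mul_assoc, mul_add, hk]
    rw [add_smul]
    simp only [mul_smul_comm, mul_one, add_mul, smul_mul_assoc, one_mul, mul_assoc]
    abel
  one_mem' := ⟨0, by simp [mat_one]⟩
  inv_mem' := by
    rintro x ⟨k, hk⟩
    refine ⟨-k, ?_⟩
    have h1 : mat x⁻¹ * mat x = 1 := by rw [← mat_mul, inv_mul_cancel, mat_one]
    have h2 : mat x * mat x⁻¹ = 1 := by rw [← mat_mul, mul_inv_cancel, mat_one]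
    calc mat x⁻¹ * ω = mat x⁻¹ * (ω + k • 1 - k • 1) := by rw [add_sub_cancel_right]
      _ = mat x⁻¹ * (ω + k • 1) * (mat x * mat x⁻¹) - k • mat x⁻¹ := by
          rw [h2, mul_one, mul_sub, mul_smul_comm, mul_one]
      _ = mat x⁻¹ * ((ω + k • 1) * mat x) * mat x⁻¹ - k • mat x⁻¹ := by simp only [mul_assoc]
      _ = mat x⁻¹ * (mat x * ω) * mat x⁻¹ - k • mat x⁻¹ := by rw [hk]
      _ = (mat x⁻¹ * mat x) * ω * mat x⁻¹ - k • mat x⁻¹ := by simp only [mul_assoc]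
      _ = (ω + (-k) • 1) * mat x⁻¹ := by
          rw [h1, one_mul, add_mul, neg_smul, neg_mul, smul_mul_assoc, one_mul]
          abel

section Char3

variable [CharP F 3]

/-- A form-preserving matrix is a scalar multiple of an element of `SU₃`. -/
theorem exists_su_of_adj {a : ℕ} (hF : Fintype.card F = q ^ 2) (ha : 1 ≤ a) (hq : q = 3 ^ a) {x0 : M3}
    (hx0a : adj q x0 * x0 = 1) : ∃ (z : F) (x : SU 3 F q), z ≠ 0 ∧ mat x = z⁻¹ • x0 := by
  have hdet := det_pow_succ hF x0 (preserves_of_adj hF hx0a)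
  obtain ⟨z, hz⟩ := exists_cube_root hF ha hq x0.det
  have hz0 : z ≠ 0 := by
    rintro rfl
    rw [zero_pow (by norm_num)] at hz
    rw [← hz, zero_pow (by omega)] at hdet
    exact zero_ne_one hdet
  have hzn : z ^ (q + 1) = 1 := by
    apply cube_inj
    rw [one_pow, ← pow_mul, mul_comm, pow_mul, hz, hdet]
  have hdetx : (z⁻¹ • x0).det = 1 := by
    rw [Matrix.det_smul, Fintype.card_fin, ← hz, inv_pow, inv_mul_cancel₀ (pow_ne_zero _ hz0)]
  have hadjx : adj q (z⁻¹ • x0) * (z⁻¹ • x0) = 1 := by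
    rw [adj_smul, smul_mul_smul_comm, hx0a, inv_pow]
    have : (z ^ q)⁻¹ * z⁻¹ = 1 := by
      rw [← mul_inv, mul_comm, ← pow_succ', hzn, inv_one]
    rw [this, one_smul]
  exact ⟨z, mkSU (z⁻¹ • x0) hdetx (preserves_of_adj hF hadjx), hz0, rfl⟩

/-- Nonisotropic vectors lie in the orbit of the line of the first basis vector. -/
theorem exists_su_map {a : ℕ} (hF : Fintype.card F = q ^ 2) (ha : 1 ≤ a) (hq : q = 3 ^ a)
    {v : Fin 3 → F} (hv : ⟪v, v⟫ ≠ 0) : ∃ (y : SU 3 F q) (ρ : F), ρ ≠ 0 ∧ act y (e0 F) = ρ • v := by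
  classical
  obtain ⟨α, hα⟩ := exists_norm_eq hF (⟪v, v⟫⁻¹) (inv_ne_zero hv)
    (by rw [inv_pow, hermForm_self_pow_q hF])
  have hα0 : α ≠ 0 := by
    rintro rfl
    rw [zero_pow (by omega)] at hα
    exact (inv_ne_zero hv) hα.symm
  set v1 := α • v with hv1
  have hv11 : ⟪v1, v1⟫ = 1 := by
    rw [hv1, hermForm_smul_left, hermForm_smul_right, ← mul_assoc, ← pow_succ', hα,
      inv_mul_cancel₀ hv]
  let f : Fin 1 → Fin 3 → F := ![v1]
  have hf : IsFrame q f := by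
    intro i j
    fin_cases i
    fin_cases j
    simpa [f] using hv11
  obtain ⟨g, hg, hgf⟩ := exists_completion hF f hf 2 (by omega)
  have hg0 : ⟪g 0, v1⟫ = 0 := by simpa [f] using hgf 0 0
  have hg1 : ⟪g 1, v1⟫ = 0 := by simpa [f] using hgf 0 1
  have hg0' : ⟪v1, g 0⟫ = 0 := by rw [← hermForm_pow_q hF, hg0, zero_pow_q hF]
  have hg1' : ⟪v1, g 1⟫ = 0 := by rw [← hermForm_pow_q hF, hg1, zero_pow_q hF]
  have h00 : ⟪g 0, g 0⟫ = 1 := by simpa using hg 0 0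
  have h11 : ⟪g 1, g 1⟫ = 1 := by simpa using hg 1 1
  have h01 : ⟪g 0, g 1⟫ = 0 := by simpa using hg 0 1
  have h10 : ⟪g 1, g 0⟫ = 0 := by simpa using hg 1 0
  let M : M3 := (Matrix.of ![v1, g 0, g 1])ᵀ
  have hM : adj q M * M = 1 := by
    ext i j
    rw [adj_mul_apply]
    have e0' : (fun k => M k 0) = v1 := rfl
    have e1 : (fun k => M k 1) = g 0 := rfl
    have e2 : (fun k => M k 2) = g 1 := rfl
    fin_cases i <;> fin_cases j <;> simp only [Fin.zero_eta, Fin.mk_one, Fin.reduceFinMk, e0', e1, e2] <;>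
      simp [hv11, hg0, hg1, hg0', hg1', h00, h11, h01, h10]
  obtain ⟨z, x, hz0, hx⟩ := exists_su_of_adj hF ha hq hM
  refine ⟨x, z⁻¹ * α, mul_ne_zero (inv_ne_zero hz0) hα0, ?_⟩
  have : M *ᵥ e0 F = v1 := by
    funext i
    rw [e0, Matrix.mulVec_single_one]
    rfl
  change mat x *ᵥ e0 F = _
  rw [hx, Matrix.smul_mulVec, this, hv1, smul_smul]

/-- The dichotomy for elements of `SU₃`. -/
theorem dichotomy {a : ℕ} (hF : Fintype.card F = q ^ 2) (ha : 1 ≤ a) (hq : q = 3 ^ a) {c : F}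
    (hc : c ^ q = c) (hirr : Irreducible (cubic c)) (g : SU 3 F q) :
    (∃ x : SU 3 F q, x * g * x⁻¹ ∈ stabLine F q) ∨
      ∃ (ω : M3) (k : F), adj q ω = ω ∧ ω ^ 3 = ω + c • 1 ∧ mat g * ω = (ω + k • 1) * mat g := by
  by_cases h1 : ∃ (l : F) (v : Fin 3 → F), mat g *ᵥ v = l • v ∧ ⟪v, v⟫ ≠ 0
  · obtain ⟨l, v, hgv, hv⟩ := h1
    left
    obtain ⟨y, ρ, hρ, hy⟩ := exists_su_map hF ha hq hv
    refine ⟨y⁻¹, l, ?_⟩
    rw [inv_inv, act_mul, act_mul, hy]
    have : act g (ρ • v) = l • (ρ • v) := by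
      change mat g *ᵥ (ρ • v) = _
      rw [Matrix.mulVec_smul, hgv, smul_comm]
    rw [this, act_smul, ← hy, act_inv_act]
  · right
    push Not at h1
    have hg : adj q (mat g) * mat g = 1 := adj_of_preserves hF (preserves_su g)
    by_cases h2 : ∃ (l : F) (v : Fin 3 → F), v ≠ 0 ∧ mat g *ᵥ v = l • v
    · obtain ⟨l, v, hv0, hgv⟩ := h2
      obtain ⟨ω, h4, h5, h6⟩ := exists_omega_of_iso hF ha hq hc hg g.1.2 hv0 (h1 l v hgv) hgv
        (fun l v hgv => h1 l v hgv)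
      exact ⟨ω, 1, h4, h5, h6⟩
    · push Not at h2
      obtain ⟨ω, h4, h5, h6⟩ := exists_omega_of_no_eigen hF hc hirr hg h2
      exact ⟨ω, 0, h4, h5, h6⟩

/-- Elements normalising a root up to translation are conjugate into `stabRoot`. -/
theorem conj_into {a : ℕ} (hF : Fintype.card F = q ^ 2) (ha : 1 ≤ a) (hq : q = 3 ^ a) {c : F}
    (hc : c ^ q = c) (hirr : Irreducible (cubic c)) {ω ω0 : M3} (hω : adj q ω = ω)
    (h3 : ω ^ 3 = ω + c • 1) (hω0 : adj q ω0 = ω0) (h30 : ω0 ^ 3 = ω0 + c • 1) (g : SU 3 F q) {k : F}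
    (hk : mat g * ω = (ω + k • 1) * mat g) : ∃ x : SU 3 F q, x * g * x⁻¹ ∈ stabRoot (q := q) ω0 := by
  obtain ⟨y, hy⟩ := exists_conj hF ha hq hc hirr hω h3 hω0 h30
  have hy' : mat y * ω = ω0 * mat y := hy
  have h1 : mat y⁻¹ * mat y = 1 := by rw [← mat_mul, inv_mul_cancel, mat_one]
  have h2 : mat y * mat y⁻¹ = 1 := by rw [← mat_mul, mul_inv_cancel, mat_one]
  have h3' : mat y⁻¹ * ω0 = ω * mat y⁻¹ := by
    calc mat y⁻¹ * ω0 = mat y⁻¹ * ω0 * (mat y * mat y⁻¹) := by rw [h2, mul_one]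
      _ = mat y⁻¹ * (ω0 * mat y) * mat y⁻¹ := by simp only [mul_assoc]
      _ = mat y⁻¹ * (mat y * ω) * mat y⁻¹ := by rw [hy']
      _ = (mat y⁻¹ * mat y) * ω * mat y⁻¹ := by simp only [mul_assoc]
      _ = _ := by rw [h1, one_mul]
  refine ⟨y, k, ?_⟩
  rw [mat_mul, mat_mul]
  calc mat y * mat g * mat y⁻¹ * ω0 = mat y * (mat g * ω) * mat y⁻¹ := by
        rw [mul_assoc, h3']; simp only [mul_assoc]
    _ = mat y * ((ω + k • 1) * mat g) * mat y⁻¹ := by rw [hk]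
    _ = (mat y * ω + k • mat y) * mat g * mat y⁻¹ := by
        rw [← mul_assoc, mul_add, mul_smul_comm, mul_one]
    _ = (ω0 * mat y + k • mat y) * mat g * mat y⁻¹ := by rw [hy']
    _ = _ := by
        simp only [add_mul, mul_assoc, smul_mul_assoc, one_mul]

/-- A specific transvection. -/
theorem exists_tv (hF : Fintype.card F = q ^ 2) :
    ∃ (t : SU 3 F q) (v : Fin 3 → F) (d : F), d ≠ 0 ∧ ⟪e0 F, v⟫ = 1 ∧ v 1 ≠ 0 ∧ v ≠ 0 ∧
      ∀ x, act t x = x + (d * ⟪x, v⟫) • v := by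
  have hq0 : q ≠ 0 := by have := two_le_q hF; omega
  have hm : (-1 : F) ^ q = -1 := by rw [pow_q_neg hF, one_pow]
  obtain ⟨θ, hθ⟩ := exists_norm_eq hF (-1) (neg_ne_zero.2 one_ne_zero) hm
  have hθ0 : θ ≠ 0 := by
    rintro rfl
    rw [zero_pow (by omega)] at hθ
    exact (neg_ne_zero.2 one_ne_zero) hθ.symm
  obtain ⟨d, hd0, hdq⟩ := Cfsg.Agent.Lib.Classical.Herm.Subfield.exists_trace_zero hF
  have hd : d + d ^ q = 0 := by rw [hdq]; ring
  have hv : ⟪(![1, θ, 0] : Fin 3 → F), ![1, θ, 0]⟫ = 0 := by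
    rw [hermForm_apply, Fin.sum_univ_three]
    simp [zero_pow_q hF]
    rw [← pow_succ'] 
    rw [hθ]
    ring
  refine ⟨tv hF hv hd, ![1, θ, 0], d, hd0, ?_, by simpa using hθ0, ?_, fun x => act_tv hF hv hd x⟩
  · rw [hermForm_apply, Fin.sum_univ_three]
    simp [e0, zero_pow_q hF]
  · intro h
    have := congrFun h 0
    simp at this

theorem stabLine_ne_top (hF : Fintype.card F = q ^ 2) : stabLine F q ≠ ⊤ := by
  obtain ⟨t, v, d, hd0, hev, hv1, hv0, ht⟩ := exists_tv (q := q) hF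
  intro htop
  have hmem : t ∈ stabLine F q := by rw [htop]; trivial
  obtain ⟨μ, hμ⟩ := hmem
  rw [ht, hev] at hμ
  have := congrFun hμ 1
  simp [e0, hd0, hv1] at this

theorem stabRoot_ne_top (hF : Fintype.card F = q ^ 2) {c : F} (hcx : ∀ x : F, x ^ 3 - x ≠ c) {ω : M3}
    (hω : adj q ω = ω) (h3 : ω ^ 3 = ω + c • 1) : stabRoot (q := q) ω ≠ ⊤ := by
  classical
  obtain ⟨t, v, d, hd0, hev, hv1, hv0, ht⟩ := exists_tv (q := q) hF
  intro htop
  have hmem : t ∈ stabRoot (q := q) ω := by rw [htop]; trivial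
  obtain ⟨k, hk⟩ := hmem
  have hact : ∀ x, (d * ⟪ω *ᵥ x, v⟫) • v = k • x + (d * ⟪x, v⟫) • (ω *ᵥ v) + (k * d * ⟪x, v⟫) • v := by
    intro x
    have h1 : mat t *ᵥ (ω *ᵥ x) = (ω + k • 1) *ᵥ (mat t *ᵥ x) := by
      rw [Matrix.mulVec_mulVec, Matrix.mulVec_mulVec, hk]
    have h2 : mat t *ᵥ (ω *ᵥ x) = ω *ᵥ x + (d * ⟪ω *ᵥ x, v⟫) • v := ht _
    have h4 : mat t *ᵥ x = x + (d * ⟪x, v⟫) • v := ht _
    rw [h2, h4, Matrix.add_mulVec, Matrix.smul_mulVec, Matrix.one_mulVec, Matrix.mulVec_add,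
      Matrix.mulVec_smul, smul_add, smul_smul] at h1
    have h5 := add_left_cancel (a := ω *ᵥ x) (b := (d * ⟪ω *ᵥ x, v⟫) • v)
      (c := k • x + (d * ⟪x, v⟫) • (ω *ᵥ v) + (k * d * ⟪x, v⟫) • v) (by
        rw [h1]
        rw [mul_assoc k]
        abel)
    exact h5
  -- the vector orthogonal to `v` and `ω v`
  let R : M3 := Matrix.of ![fun i => v i ^ q, fun i => (ω *ᵥ v) i ^ q, 0]
  have hR : R.det = 0 := Matrix.det_eq_zero_of_row_eq_zero 2 (fun j => rfl)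
  obtain ⟨x, hx0, hRx⟩ := Matrix.exists_mulVec_eq_zero_iff.2 hR
  have hxv : ⟪x, v⟫ = 0 := by
    have := congrFun hRx 0
    simp only [Matrix.mulVec, dotProduct, Pi.zero_apply] at this
    rw [hermForm_apply, ← this]
    exact Finset.sum_congr rfl fun j _ => mul_comm _ _
  have hxωv : ⟪x, ω *ᵥ v⟫ = 0 := by
    have := congrFun hRx 1
    simp only [Matrix.mulVec, dotProduct, Pi.zero_apply] at this
    rw [hermForm_apply, ← this]
    exact Finset.sum_congr rfl fun j _ => mul_comm _ _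
  have hk0 : k = 0 := by
    have h1 := hact x
    have h2 : ⟪ω *ᵥ x, v⟫ = 0 := by rw [herm_left hF, hω, hxωv]
    rw [h2, hxv] at h1
    simp only [mul_zero, zero_smul, add_zero, zero_add] at h1
    exact (smul_eq_zero.1 h1.symm).resolve_right hx0
  subst hk0
  have h1 := hact (e0 F)
  rw [hev] at h1
  simp only [zero_smul, zero_mul, add_zero, zero_add, mul_one] at h1
  have h2 : ω *ᵥ v = ⟪ω *ᵥ e0 F, v⟫ • v := by
    have h5 := congrArg (fun z => d⁻¹ • z) h1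
    simp only [smul_smul] at h5
    rw [inv_mul_cancel₀ hd0, one_smul, ← mul_assoc, inv_mul_cancel₀ hd0, one_mul] at h5
    exact h5.symm
  set m := ⟪ω *ᵥ e0 F, v⟫ with hm
  have h4 : ω ^ 3 *ᵥ v = (m ^ 3) • v := by
    have h2' : ∀ r : F, ω *ᵥ (r • v) = (r * m) • v := fun r => by
      rw [Matrix.mulVec_smul, h2, smul_smul]
    rw [pow_succ, pow_two, ← Matrix.mulVec_mulVec, ← Matrix.mulVec_mulVec, h2, h2', h2']
    congr 1
    ring
  rw [h3, Matrix.add_mulVec, Matrix.smul_mulVec, Matrix.one_mulVec, h2, ← add_smul] at h4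
  have h5 : (m + c - m ^ 3) • v = 0 := by rw [sub_smul, h4, sub_self]
  have h6 := (smul_eq_zero.1 h5).resolve_right hv0
  apply hcx m
  linear_combination -h6

end Char3

/-- `PSU₃(3 ^ a)` is the union of the conjugates of two proper subgroups. -/
theorem cover2 {F : Type*} [Field F] [Fintype F] (q a : ℕ) (hF : Fintype.card F = q ^ 2) (ha : 1 ≤ a)
    (hq : q = 3 ^ a) :
    ∃ H K : Subgroup (Cfsg.PSU 3 F q), H ≠ ⊤ ∧ K ≠ ⊤ ∧
      ∀ g : Cfsg.PSU 3 F q, ∃ x : Cfsg.PSU 3 F q, x * g * x⁻¹ ∈ H ∨ x * g * x⁻¹ ∈ K := by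
  classical
  haveI : CharP F 3 := charP_three hF ha hq
  obtain ⟨c, hc, hcx⟩ := exists_const hF ha hq
  have hirr := cubic_irreducible hcx
  have hZH : Subgroup.center (SU 3 F q) ≤ stabLine F q := by
    intro z hz
    obtain ⟨ρ, hρ⟩ := center_scalar hF z hz
    have hρ' : mat z = Matrix.scalar (Fin 3) ρ := hρ
    refine ⟨ρ, ?_⟩
    change mat z *ᵥ _ = _
    rw [hρ', scalar_mulVec']
  by_cases hex : ∃ ω0 : Matrix (Fin 3) (Fin 3) F, adj q ω0 = ω0 ∧ ω0 ^ 3 = ω0 + c • 1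
  · obtain ⟨ω0, hω0, h30⟩ := hex
    have hZK : Subgroup.center (SU 3 F q) ≤ stabRoot (q := q) ω0 := by
      intro z hz
      obtain ⟨ρ, hρ⟩ := center_scalar hF z hz
      have hρ' : mat z = Matrix.scalar (Fin 3) ρ := hρ
      refine ⟨0, ?_⟩
      rw [hρ', zero_smul, add_zero, Matrix.scalar_apply]
      ext i j
      simp [Matrix.diagonal_mul, Matrix.mul_diagonal, mul_comm]
    refine Cfsg.Agent.Lib.Cover2.cover2_quotient _ _ _ hZH hZK (stabLine_ne_top hF)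
      (stabRoot_ne_top hF hcx hω0 h30) fun g => ?_
    rcases dichotomy hF ha hq hc hirr g with ⟨x, hx⟩ | ⟨ω, k, hω, h3, hk⟩
    · exact ⟨x, Or.inl hx⟩
    · obtain ⟨x, hx⟩ := conj_into hF ha hq hc hirr hω h3 hω0 h30 g hk
      exact ⟨x, Or.inr hx⟩
  · refine Cfsg.Agent.Lib.Cover2.cover2_quotient _ _ _ hZH hZH (stabLine_ne_top hF)
      (stabLine_ne_top hF) fun g => ?_
    rcases dichotomy hF ha hq hc hirr g with ⟨x, hx⟩ | ⟨ω, k, hω, h3, hk⟩
    · exact ⟨x, Or.inl hx⟩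
    · exact absurd ⟨ω, hω, h3⟩ hex

end Cfsg.Agent.Lib.Cover2.PSU3
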