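import Mathlib
import Cfsg.Agent.Lib.Classical.Herm.HermOnb

/-!
# Parity of irreducible unitary elements

An isometry of a non-degenerate hermitian space over a field with `q²` elements which acts
irreducibly forces the dimension to be odd.
-/

set_option autoImplicit false
set_option linter.unusedSectionVars false
set_option linter.unusedSimpArgs false
set_option linter.unusedVariables false

open scoped Matrix
open Cfsg
open Cfsg.Agent.Lib.Classical.Herm.Basic Cfsg.Agent.Lib.Classical.Herm.GU
open Cfsg.Agent.Lib.Classical.Herm.SU Cfsg.Agent.Lib.Classical.Herm.HermOnb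
open Module

namespace Cfsg.Agent.Lib.Cover2.UParity

/-- The field-theoretic core: a finite field with an involution moving `c`, `c ^ √|E| = c`, is impossible. -/
theorem core {E : Type*} [Field E] [Finite E] (τ : E →+* E) (hτ : ∀ x, τ (τ x) = x) (c : E)
    (hc : τ c ≠ c) (N : ℕ) (hN : Nat.card E = N ^ 2) (hcN : c ^ N = c) : False := by
  classical
  have : Fintype E := Fintype.ofFinite E
  let K : Subfield E := RingHom.eqLocusField τ (RingHom.id E)
  have hKmem : ∀ a : E, a ∈ K ↔ τ a = a := fun a => Iff.rfl
  have : Fintype K := Fintype.ofFinite K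
  have hd : c - τ c ≠ 0 := fun h => hc (sub_eq_zero.mp h).symm
  let f : K × K → E := fun p => (p.1 : E) + c * (p.2 : E)
  have hfa : ∀ a : K, τ (a : E) = a := fun a => a.2
  have hfinj : Function.Injective f := by
    rintro ⟨a, b⟩ ⟨a', b'⟩ h
    have h1 : (a : E) + c * b = a' + c * b' := h
    have h2 := congrArg τ h1
    simp only [map_add, map_mul, hfa] at h2
    have h3 : (c - τ c) * ((b : E) - b') = 0 := by linear_combination h1 - h2
    have h4 : (b : E) = b' := sub_eq_zero.mp ((mul_eq_zero.mp h3).resolve_left hd)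
    have h5 : (a : E) = a' := by rw [h4] at h1; exact add_right_cancel h1
    exact Prod.ext (Subtype.ext h5) (Subtype.ext h4)
  have hfsurj : Function.Surjective f := by
    intro x
    obtain ⟨b, hb, hbd⟩ : ∃ b : E, τ b = b ∧ (c - τ c) * b = x - τ x := by
      refine ⟨(x - τ x) / (c - τ c), ?_, ?_⟩
      · simp only [map_div₀, map_sub, hτ]
        have h1 : τ c - c ≠ 0 := fun h => hc (sub_eq_zero.mp h)
        field_simp
        ring
      · field_simp
    obtain ⟨a, ha, hax⟩ : ∃ a : E, τ a = a ∧ a = x - c * b := by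
      refine ⟨x - c * b, ?_, rfl⟩
      simp only [map_sub, map_mul, hb]
      linear_combination hbd
    exact ⟨(⟨a, ha⟩, ⟨b, hb⟩), by simp [f, hax]⟩
  have hcard : Nat.card K * Nat.card K = N ^ 2 := by
    rw [← hN, ← Nat.card_prod]
    exact Nat.card_congr (Equiv.ofBijective f ⟨hfinj, hfsurj⟩)
  have hcardK : Nat.card K = N := by
    have h : Nat.card K ^ 2 = N ^ 2 := by rw [sq]; exact hcard
    exact Nat.pow_left_injective (n := 2) (by norm_num) h
  have hN1 : 1 < N := by
    have h2 : 1 < Nat.card E := Finite.one_lt_card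
    rw [hN] at h2
    by_contra hcon
    have : N ≤ 1 := by omega
    have h3 : N ^ 2 ≤ 1 := by nlinarith
    omega
  have hroots : ∀ a : K, (a : E) ^ N = a := by
    intro a
    have h := FiniteField.pow_card a
    rw [← Nat.card_eq_fintype_card, hcardK] at h
    exact congrArg Subtype.val h
  let P : Polynomial E := Polynomial.X ^ N - Polynomial.X
  have hPdeg : P.natDegree = N := FiniteField.X_pow_card_sub_X_natDegree_eq E hN1
  have hP0 : P ≠ 0 := FiniteField.X_pow_card_sub_X_ne_zero E hN1
  have hmem : ∀ x : E, x ^ N = x → x ∈ P.roots.toFinset := by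
    intro x hx
    rw [Multiset.mem_toFinset, Polynomial.mem_roots hP0]
    simp [P, Polynomial.IsRoot, hx]
  let T : Finset E := insert c (Finset.univ.image (fun a : K => (a : E)))
  have hT : T ⊆ P.roots.toFinset := by
    intro x hx
    simp only [T, Finset.mem_insert, Finset.mem_image, Finset.mem_univ, true_and] at hx
    rcases hx with rfl | ⟨a, rfl⟩
    · exact hmem _ hcN
    · exact hmem _ (hroots a)
  have hTcard : T.card = N + 1 := by
    simp only [T]
    rw [Finset.card_insert_of_notMem]
    · rw [Finset.card_image_of_injective _ Subtype.val_injective, Finset.card_univ,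
        ← Nat.card_eq_fintype_card, hcardK]
    · simp only [Finset.mem_image, Finset.mem_univ, true_and, not_exists]
      intro a ha
      exact hc (by rw [← ha]; exact a.2)
  have h1 := Finset.card_le_card hT
  have h2 := Multiset.toFinset_card_le P.roots
  have h3 := Polynomial.card_roots' P
  omega

variable {F : Type*} [Field F] [Fintype F] {q : ℕ}

/-- The adjoint matrix. -/
noncomputable def adj (hF : Fintype.card F = q ^ 2) {n : ℕ} (A : Matrix (Fin n) (Fin n) F) :
    Matrix (Fin n) (Fin n) F := (A.map (sigma hF))ᵀ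

theorem adj_add (hF : Fintype.card F = q ^ 2) {n : ℕ} (A B : Matrix (Fin n) (Fin n) F) :
    adj hF (A + B) = adj hF A + adj hF B := by
  ext i j
  simp [adj, Matrix.map_apply, pow_q_add hF]

theorem adj_mul (hF : Fintype.card F = q ^ 2) {n : ℕ} (A B : Matrix (Fin n) (Fin n) F) :
    adj hF (A * B) = adj hF B * adj hF A := by
  simp only [adj]
  rw [Matrix.map_mul, Matrix.transpose_mul]

theorem adj_adj (hF : Fintype.card F = q ^ 2) {n : ℕ} (A : Matrix (Fin n) (Fin n) F) :
    adj hF (adj hF A) = A := by
  ext i j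
  simp [adj, Matrix.map_apply, pow_q_pow_q hF]

theorem adj_algebraMap (hF : Fintype.card F = q ^ 2) {n : ℕ} (c : F) :
    adj hF (algebraMap F (Matrix (Fin n) (Fin n) F) c) = algebraMap F _ (sigma hF c) := by
  ext i j
  by_cases h : i = j
  · subst h
    simp [adj, Matrix.map_apply, Matrix.algebraMap_matrix_apply]
  · have h' : j ≠ i := fun e => h e.symm
    have hq := two_le_q hF
    have hq0 : q ≠ 0 := by omega
    simp [adj, Matrix.map_apply, Matrix.algebraMap_matrix_apply, h, h', hq0]

theorem adj_mul_self (hF : Fintype.card F = q ^ 2) {n : ℕ} (M : Matrix (Fin n) (Fin n) F)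
    (hM : Preserves q M) : adj hF M * M = 1 := by
  have h := congrArg Matrix.transpose (transpose_mul_map hF M hM)
  rw [Matrix.transpose_mul, Matrix.transpose_transpose, Matrix.transpose_one] at h
  exact h

/-- A matrix inverse which is a power. -/
theorem exists_pow_eq_one (hF : Fintype.card F = q ^ 2) {n : ℕ} (M : Matrix (Fin n) (Fin n) F)
    (hM : Preserves q M) : ∃ k : ℕ, M ^ (k + 1) = 1 := by
  have hu : IsUnit M := isUnit_of_preserves hF M hM
  obtain ⟨u, rfl⟩ := hu
  have hfin : IsOfFinOrder u := isOfFinOrder_of_finite u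
  obtain ⟨k, hk, hk1⟩ := hfin.exists_pow_eq_one
  obtain ⟨j, rfl⟩ : ∃ j, k = j + 1 := ⟨k - 1, by omega⟩
  refine ⟨j, ?_⟩
  have := congrArg Units.val hk1
  simpa using this

/-- The matrix version of parity. -/
theorem odd_of_irred (hF : Fintype.card F = q ^ 2) {n : ℕ} (hn : 1 ≤ n)
    (M : Matrix (Fin n) (Fin n) F) (hM : Preserves q M)
    (hirr : ∀ U : Submodule F (Fin n → F), (∀ x ∈ U, M *ᵥ x ∈ U) → U = ⊥ ∨ U = ⊤) : Odd n := by
  classical
  by_contra hodd
  have heven : Even n := Nat.not_odd_iff_even.mp hodd
  obtain ⟨d, hd⟩ := heven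
  haveI : NeZero n := ⟨by omega⟩
  have hq := two_le_q hF
  -- the subalgebra
  let S : Subalgebra F (Matrix (Fin n) (Fin n) F) := Algebra.adjoin F {M}
  letI cr : CommRing S := Algebra.adjoinCommRingOfComm F (s := {M}) (by
    rintro a rfl b rfl
    rfl)
  have hMS : M ∈ S := Algebra.subset_adjoin rfl
  -- commuting
  have hcomm : ∀ x ∈ S, M * x = x * M := by
    intro x hx
    induction hx using Algebra.adjoin_induction with
    | mem y hy =>
      rw [Set.mem_singleton_iff] at hy
      rw [hy]
    | algebraMap c => exact (Algebra.commutes c M).symm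
    | add a b _ _ ha hb => rw [mul_add, add_mul, ha, hb]
    | mul a b _ _ ha hb => rw [← mul_assoc, ha, mul_assoc, hb, mul_assoc]
  -- kernels
  have hker : ∀ x ∈ S, x ≠ 0 → ∀ v, x *ᵥ v = 0 → v = 0 := by
    intro x hx hx0 v hv
    let U : Submodule F (Fin n → F) := LinearMap.ker (Matrix.mulVecLin x)
    have hUinv : ∀ y ∈ U, M *ᵥ y ∈ U := by
      intro y hy
      have hy' : x *ᵥ y = 0 := hy
      change x *ᵥ (M *ᵥ y) = 0
      rw [Matrix.mulVec_mulVec, ← hcomm x hx, ← Matrix.mulVec_mulVec, hy', Matrix.mulVec_zero]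
    rcases hirr U hUinv with h | h
    · have : v ∈ U := hv
      rw [h] at this
      exact (Submodule.mem_bot F).mp this
    · exfalso
      apply hx0
      have h1 : Matrix.mulVecLin x = 0 := LinearMap.ker_eq_top.mp h
      have h2 : ∀ w, x *ᵥ w = 0 := fun w => by
        have := congrArg (fun L => L w) h1
        simpa using this
      ext i j
      have := congrFun (h2 (Pi.single j 1)) i
      simpa using this
  -- `S` is a domain
  haveI : Nontrivial S := by
    refine ⟨⟨0, 1, fun h => ?_⟩⟩
    have h1 : ((0 : S) : Matrix (Fin n) (Fin n) F) = ((1 : S) : Matrix (Fin n) (Fin n) F) :=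
      congrArg Subtype.val h
    have h2 : (0 : Matrix (Fin n) (Fin n) F) = 1 := h1
    exact zero_ne_one h2
  haveI : NoZeroDivisors S := by
    refine ⟨fun {a b} hab => ?_⟩
    by_contra hcon
    push Not at hcon
    obtain ⟨ha, hb⟩ := hcon
    have ha' : (a : Matrix (Fin n) (Fin n) F) ≠ 0 := fun h => ha (Subtype.ext h)
    have hb' : (b : Matrix (Fin n) (Fin n) F) ≠ 0 := fun h => hb (Subtype.ext h)
    have hab' : (a : Matrix (Fin n) (Fin n) F) * b = 0 := congrArg Subtype.val hab
    apply hb'
    ext i j
    have h1 := hker a a.2 ha' (fun i => (b : Matrix (Fin n) (Fin n) F) i j) (by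
      have := congrArg (fun A : Matrix (Fin n) (Fin n) F => fun i => A i j) hab'
      funext l
      have h3 := congrFun this l
      simpa [Matrix.mul_apply, Matrix.mulVec, dotProduct] using h3)
    exact congrFun h1 i
  haveI : IsDomain S := NoZeroDivisors.to_isDomain S
  haveI : Finite S := inferInstance
  letI fld : Field S := (Finite.isDomain_to_isField S).toField
  -- the involution
  have hinv : ∃ N ∈ S, N = adj hF M := by
    obtain ⟨k, hk⟩ := exists_pow_eq_one hF M hM
    refine ⟨M ^ k, pow_mem hMS k, ?_⟩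
    have h1 := adj_mul_self hF M hM
    calc M ^ k = (adj hF M * M) * M ^ k := by rw [h1, one_mul]
      _ = adj hF M * M ^ (k + 1) := by rw [pow_succ' M k, mul_assoc]
      _ = adj hF M := by rw [hk, mul_one]
  have hadjS : ∀ x ∈ S, adj hF x ∈ S := by
    intro x hx
    induction hx using Algebra.adjoin_induction with
    | mem y hy =>
      rw [Set.mem_singleton_iff] at hy
      rw [hy]
      obtain ⟨N, hN, e⟩ := hinv
      rw [← e]
      exact hN
    | algebraMap c =>
      rw [adj_algebraMap]
      exact S.algebraMap_mem _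
    | add a b _ _ ha hb =>
      rw [adj_add]
      exact S.add_mem ha hb
    | mul a b _ _ ha hb =>
      rw [adj_mul]
      exact S.mul_mem hb ha
  let τ : S →+* S :=
    { toFun := fun x => ⟨adj hF x.1, hadjS x.1 x.2⟩
      map_one' := by
        apply Subtype.ext
        have := adj_algebraMap hF (n := n) (1 : F)
        simpa using this
      map_zero' := by
        apply Subtype.ext
        have := adj_algebraMap hF (n := n) (0 : F)
        simpa [zero_pow_q hF] using this
      map_add' := fun x y => Subtype.ext (adj_add hF _ _)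
      map_mul' := fun x y => by
        apply Subtype.ext
        change adj hF ((x : Matrix (Fin n) (Fin n) F) * (y : Matrix (Fin n) (Fin n) F)) = adj hF (x : Matrix (Fin n) (Fin n) F) * adj hF (y : Matrix (Fin n) (Fin n) F)
        rw [adj_mul]
        have h := congrArg Subtype.val
          (mul_comm (⟨adj hF y.1, hadjS y.1 y.2⟩ : S) ⟨adj hF x.1, hadjS x.1 x.2⟩)
        exact h }
  have hττ : ∀ x, τ (τ x) = x := fun x => Subtype.ext (adj_adj hF x.1)
  -- a moved scalar
  obtain ⟨c₀, hc₀⟩ : ∃ c : F, sigma hF c ≠ c := by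
    by_contra hcon
    push Not at hcon
    exact sigma_ne_id hF (RingHom.ext hcon)
  let c : S := algebraMap F S c₀
  have hcoe : ∀ a : F, ((algebraMap F S a : S) : Matrix (Fin n) (Fin n) F) =
      algebraMap F (Matrix (Fin n) (Fin n) F) a := fun _ => rfl
  have hscal_inj : Function.Injective (algebraMap F (Matrix (Fin n) (Fin n) F)) :=
    (algebraMap F (Matrix (Fin n) (Fin n) F)).injective
  have hτc : τ c ≠ c := by
    intro h
    have h1 := congrArg Subtype.val h
    have h2 : adj hF (algebraMap F (Matrix (Fin n) (Fin n) F) c₀) =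
        algebraMap F _ c₀ := h1
    rw [adj_algebraMap] at h2
    exact hc₀ (hscal_inj h2)
  -- cardinality
  obtain ⟨v₀, hv₀⟩ : ∃ v : Fin n → F, v ≠ 0 := ⟨fun _ => 1, fun h => by
    have := congrFun h ⟨0, by omega⟩
    exact one_ne_zero this⟩
  let L : S →ₗ[F] (Fin n → F) :=
    { toFun := fun x => (x : Matrix (Fin n) (Fin n) F) *ᵥ v₀
      map_add' := fun x y => Matrix.add_mulVec _ _ _
      map_smul' := fun a x => Matrix.smul_mulVec _ _ _ }
  have hLinj : Function.Injective L := by
    rw [injective_iff_map_eq_zero]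
    intro x hx
    by_contra hx0
    have hx0' : (x : Matrix (Fin n) (Fin n) F) ≠ 0 := fun h => hx0 (Subtype.ext h)
    exact hv₀ (hker x x.2 hx0' v₀ hx)
  have hLsurj : Function.Surjective L := by
    have hU : LinearMap.range L = ⊤ := by
      rcases hirr (LinearMap.range L) (by
        rintro _ ⟨x, rfl⟩
        refine ⟨⟨M * x, S.mul_mem hMS x.2⟩, ?_⟩
        change (M * (x : Matrix (Fin n) (Fin n) F)) *ᵥ v₀ = M *ᵥ ((x : Matrix (Fin n) (Fin n) F) *ᵥ v₀)
        rw [Matrix.mulVec_mulVec]) with h | h
      · exfalso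
        have h1 : L 1 ∈ LinearMap.range L := ⟨1, rfl⟩
        rw [h, Submodule.mem_bot] at h1
        apply hv₀
        have h2 : (1 : Matrix (Fin n) (Fin n) F) *ᵥ v₀ = 0 := h1
        simpa using h2
      · exact h
    exact LinearMap.range_eq_top.mp hU
  have hcardS : Nat.card S = (q ^ n) ^ 2 := by
    rw [Nat.card_congr (Equiv.ofBijective L ⟨hLinj, hLsurj⟩)]
    rw [Nat.card_eq_fintype_card, Fintype.card_fun, hF, Fintype.card_fin]
    ring
  -- `c ^ (q^n) = c`
  have hc0pow : c₀ ^ (q ^ n) = c₀ := by
    have h1 := FiniteField.pow_card_pow d c₀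
    rw [hF] at h1
    have h2 : (q ^ 2) ^ d = q ^ n := by
      rw [← pow_mul]
      congr 1
      omega
    rwa [h2] at h1
  have hcpow : c ^ (q ^ n) = c := by
    simp only [c]
    rw [← map_pow, hc0pow]
  exact core τ hττ c hτc (q ^ n) hcardS hcpow

end Cfsg.Agent.Lib.Cover2.UParity
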