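import Mathlib
import Cfsg.Agent.Lib.Cover2.UParity
import Cfsg.Agent.Lib.Classical.Herm.TIStab

/-!
# Invariant subspaces of unitary elements in dimension four

Every isometry of the standard hermitian form on `F⁴` fixes a non-isotropic line or a totally
isotropic plane.
-/

set_option autoImplicit false
set_option linter.unusedSectionVars false
set_option linter.unusedSimpArgs false
set_option linter.unusedVariables false
set_option linter.deprecated false

open scoped Matrix
open Cfsg
open Cfsg.Agent.Lib.Classical.Herm.Basic Cfsg.Agent.Lib.Classical.Herm.GU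
open Cfsg.Agent.Lib.Classical.Herm.SU Cfsg.Agent.Lib.Classical.Herm.HermOnb
open Cfsg.Agent.Lib.Classical.Herm.Form Cfsg.Agent.Lib.Classical.Herm.TIFrame
open Cfsg.Agent.Lib.Cover2.UParity
open Module

namespace Cfsg.Agent.Lib.Cover2.UDich

variable {F : Type*} [Field F] [Fintype F] {q : ℕ}

theorem eq_bot_of_map_eq_bot {V W : Type*} [AddCommGroup V] [Module F V] [AddCommGroup W] [Module F W]
    (f : V →ₗ[F] W) (hf : Function.Injective f) {U : Submodule F V} (h : U.map f = ⊥) : U = ⊥ := by
  rw [eq_bot_iff]
  intro x hx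
  have h1 : f x ∈ U.map f := Submodule.mem_map_of_mem hx
  rw [h, Submodule.mem_bot] at h1
  rw [Submodule.mem_bot]
  exact hf (by rw [h1, map_zero])

/-- Parity for an abstract hermitian space. -/
theorem odd_finrank (hF : Fintype.card F = q ^ 2) {V : Type*} [AddCommGroup V] [Module F V]
    [FiniteDimensional F V] (hV : finrank F V ≠ 0) (h : V → V → F) (hh : IsHerm q h)
    (g : V →ₗ[F] V) (hg : ∀ x y, h (g x) (g y) = h x y)
    (hirr : ∀ U : Submodule F V, (∀ x ∈ U, g x ∈ U) → U = ⊥ ∨ U = ⊤) : Odd (finrank F V) := by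
  classical
  obtain ⟨Φ, hΦ⟩ := exists_isometry hF (finrank F V) V h hh rfl
  let L : (Fin (finrank F V) → F) →ₗ[F] (Fin (finrank F V) → F) :=
    Φ.symm.toLinearMap ∘ₗ g ∘ₗ Φ.toLinearMap
  have hL : ∀ x, Φ (L x) = g (Φ x) := fun x => by simp [L]
  let M := LinearMap.toMatrix' L
  have hM : ∀ x, M *ᵥ x = L x := fun x => LinearMap.toMatrix'_mulVec L x
  apply odd_of_irred hF (by omega) M
  · intro u v
    rw [hM, hM, ← hΦ, hL, hL, hg, hΦ]
  · intro U hU
    have hinv : ∀ x ∈ U.map Φ.toLinearMap, g x ∈ U.map Φ.toLinearMap := by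
      rintro _ ⟨y, hy, rfl⟩
      refine ⟨M *ᵥ y, hU y hy, ?_⟩
      change Φ (M *ᵥ y) = g (Φ y)
      rw [hM, hL]
    rcases hirr _ hinv with h1 | h1
    · left
      exact eq_bot_of_map_eq_bot Φ.toLinearMap Φ.injective h1
    · right
      rw [eq_top_iff]
      intro y _
      have hy : Φ y ∈ U.map Φ.toLinearMap := by rw [h1]; exact Submodule.mem_top
      obtain ⟨z, hz, hzy⟩ := hy
      have : z = y := Φ.injective hzy
      rwa [← this]

/-- A one-dimensional subspace has a generator. -/
theorem exists_gen {V : Type*} [AddCommGroup V] [Module F V] (U : Submodule F V)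
    (h : finrank F U = 1) : ∃ w ∈ U, w ≠ 0 ∧ ∀ x ∈ U, ∃ c : F, x = c • w := by
  obtain ⟨v, hv, hall⟩ := finrank_eq_one_iff'.mp h
  refine ⟨v.1, v.2, fun h0 => hv (Subtype.ext h0), fun x hx => ?_⟩
  obtain ⟨c, hc⟩ := hall ⟨x, hx⟩
  exact ⟨c, by
    have := congrArg Subtype.val hc
    simpa using this.symm⟩

/-- An eigenvector in dimension two. -/
theorem exists_eigen2 (hF : Fintype.card F = q ^ 2) (A : Matrix (Fin 2) (Fin 2) F)
    (hA : Preserves q A) : ∃ (w : Fin 2 → F) (l : F), w ≠ 0 ∧ A *ᵥ w = l • w := by
  by_contra hcon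
  have hodd : Odd 2 := by
    apply odd_of_irred hF (by norm_num) A hA
    intro U hU
    by_contra hU'
    push Not at hU'
    obtain ⟨h0, h1⟩ := hU'
    have hlt : finrank F U < 2 := by
      have := Submodule.finrank_lt h1
      simpa using this
    have hpos : finrank F U ≠ 0 := fun h => h0 (Submodule.finrank_eq_zero.mp h)
    obtain ⟨w, hw, hw0, hall⟩ := exists_gen U (by omega)
    obtain ⟨c, hc⟩ := hall _ (hU w hw)
    exact hcon ⟨w, c, hw0, hc⟩
  exact absurd hodd (by decide)

local notation "⟪" x ", " y "⟫" => hermForm _ _ q x y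

theorem hermForm_two (u v : Fin 2 → F) : hermForm 2 F q u v = u 0 * v 0 ^ q + u 1 * v 1 ^ q := by
  simp [hermForm, Fin.sum_univ_two]

/-- A well-chosen eigenvector in dimension two. -/
theorem exists_eigen2' (hF : Fintype.card F = q ^ 2) (A : Matrix (Fin 2) (Fin 2) F)
    (hA : Preserves q A) (φ : (Fin 2 → F) →ₗ[F] F) (μ : F) :
    ∃ (w : Fin 2 → F) (l : F), w ≠ 0 ∧ A *ᵥ w = l • w ∧
      (hermForm 2 F q w w = 0 ∨ l ≠ μ ∨ φ w = 0) := by
  obtain ⟨w, l, hw, hAw⟩ := exists_eigen2 hF A hA
  by_cases hN : hermForm 2 F q w w = 0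
  · exact ⟨w, l, hw, hAw, Or.inl hN⟩
  by_cases hl : l = μ
  swap
  · exact ⟨w, l, hw, hAw, Or.inr (Or.inl hl)⟩
  by_cases hφ : φ w = 0
  · exact ⟨w, l, hw, hAw, Or.inr (Or.inr hφ)⟩
  subst hl
  have hq := two_le_q hF
  have hl0 : l ≠ 0 := by
    rintro rfl
    apply hN
    rw [← hA w w, hAw]
    simp [hermForm_zero_left]
  let N := hermForm 2 F q w w
  have hNexp : N = w 0 * w 0 ^ q + w 1 * w 1 ^ q := hermForm_two w w
  let w' : Fin 2 → F := ![w 1 ^ q, -(w 0 ^ q)]
  have hw'0 : w' 0 = w 1 ^ q := rfl
  have hw'1 : w' 1 = -(w 0 ^ q) := rfl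
  have hw'w : hermForm 2 F q w' w = 0 := by
    rw [hermForm_two, hw'0, hw'1]
    ring
  have hww' : hermForm 2 F q w w' = 0 := by
    rw [← hermForm_pow_q hF, hw'w, zero_pow_q hF]
  have hw'w' : hermForm 2 F q w' w' = N := by
    rw [hermForm_two, hw'0, hw'1, hNexp, pow_q_neg hF, pow_q_pow_q hF, pow_q_pow_q hF]
    ring
  have hN0 : N ≠ 0 := hN
  -- the image of `w'`
  let v := A *ᵥ w'
  have hvw : hermForm 2 F q v w = 0 := by
    have h1 : A *ᵥ (l⁻¹ • w) = w := by
      rw [Matrix.mulVec_smul, hAw, smul_smul, inv_mul_cancel₀ hl0, one_smul]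
    rw [← h1, hA, hermForm_smul_right, hw'w, mul_zero]
  have hvw' : hermForm 2 F q v w = v 0 * w 0 ^ q + v 1 * w 1 ^ q := hermForm_two v w
  rw [hvw'] at hvw
  let c := (v 0 * w 1 - v 1 * w 0) / N
  have hcN : c * N = v 0 * w 1 - v 1 * w 0 := by
    simp only [c]
    field_simp
  have hv0 : v 0 = c * w 1 ^ q := by
    apply mul_right_cancel₀ hN0
    rw [mul_right_comm, hcN]
    rw [hNexp]
    linear_combination (w 0) * hvw
  have hv1 : v 1 = c * -(w 0 ^ q) := by
    apply mul_right_cancel₀ hN0
    have h2 : c * -(w 0 ^ q) * N = -(c * N) * w 0 ^ q := by ring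
    rw [h2, hcN, hNexp]
    linear_combination (w 1) * hvw
  have hAw' : A *ᵥ w' = c • w' := by
    funext i
    fin_cases i
    · change v 0 = c * w' 0
      rw [hv0, hw'0]
    · change v 1 = c * w' 1
      rw [hv1, hw'1]
  have hw'ne : w' ≠ 0 := by
    intro h
    apply hN0
    rw [← hw'w', h, hermForm_zero_left]
  by_cases hcl : c = l
  · -- `A` is scalar
    let w'' : Fin 2 → F := φ w' • w - φ w • w'
    refine ⟨w'', l, ?_, ?_, Or.inr (Or.inr ?_)⟩
    · intro h
      have h1 : hermForm 2 F q w'' w' = 0 := by rw [h, hermForm_zero_left]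
      have h2 : hermForm 2 F q w'' w' = - (φ w * N) := by
        simp only [w'']
        rw [sub_eq_add_neg, ← neg_smul, hermForm_add_left, hermForm_smul_left, hermForm_smul_left,
          hww', hw'w']
        ring
      rw [h2] at h1
      exact (mul_ne_zero hφ hN0) (neg_eq_zero.mp h1)
    · simp only [w'']
      rw [Matrix.mulVec_sub, Matrix.mulVec_smul, Matrix.mulVec_smul, hAw, hAw', hcl, smul_sub,
        smul_smul, smul_smul, smul_smul, smul_smul, mul_comm l, mul_comm l]
    · simp only [w'', map_sub, map_smul, smul_eq_mul]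
      ring
  · exact ⟨w', c, hw'ne, hAw', Or.inr (Or.inl hcl)⟩

/-- The conclusion of the dichotomy. -/
def Concl (q : ℕ) (M : Matrix (Fin 4) (Fin 4) F) : Prop :=
  (∃ v : Fin 4 → F, hermForm 4 F q v v ≠ 0 ∧ ∃ c : F, M *ᵥ v = c • v) ∨
  (∃ s : Fin 2 → Fin 4 → F, LinearIndependent F s ∧ (∀ i j, hermForm 4 F q (s i) (s j) = 0) ∧
    ∀ i, M *ᵥ s i ∈ Submodule.span F (Set.range s))

/-- The case of an isotropic eigenvector. -/
theorem concl_of_isotropic (hF : Fintype.card F = q ^ 2) (M : Matrix (Fin 4) (Fin 4) F)
    (hM : Preserves q M) {u : Fin 4 → F} (hu : u ≠ 0) (huu : hermForm 4 F q u u = 0) {μ : F}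
    (hMu : M *ᵥ u = μ • u) : Concl q M := by
  classical
  have hq := two_le_q hF
  have hμ : μ ≠ 0 := by
    rintro rfl
    have h1 : M *ᵥ u = 0 := by rw [hMu, zero_smul]
    apply hu
    apply hermForm_nondegenerate_left hF 4
    intro v
    rw [← hM u v, h1, hermForm_zero_left]
  obtain ⟨t, r, hW⟩ := exists_witt hF (k := 1) (m := 2) (n := 4) (by norm_num) ![u]
    (linearIndependent_unique_iff.mpr (by simpa using hu))
    (by
      intro i j
      fin_cases i
      fin_cases j
      simpa using huu)
  let f := t 0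
  have huf : hermForm 4 F q u f = 1 := by simpa using hW.st 0 0
  have hfu : hermForm 4 F q f u = 1 := by simpa using hW.ts 0 0
  have hur : ∀ l, hermForm 4 F q u (r l) = 0 := by simpa using hW.sr 0
  have hru : ∀ l, hermForm 4 F q (r l) u = 0 := fun l => by simpa using hW.rs l 0
  have hfr : ∀ l, hermForm 4 F q f (r l) = 0 := hW.tr 0
  have hrf : ∀ l, hermForm 4 F q (r l) f = 0 := fun l => hW.rt l 0
  have hrr : ∀ i j, hermForm 4 F q (r i) (r j) = if i = j then 1 else 0 := hW.rr
  -- the coordinates
  let y : (Fin 2 → F) →ₗ[F] (Fin 4 → F) := Fintype.linearCombination F r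
  have hy : ∀ a, y a = ∑ l, a l • r l := fun a => by
    simp [y, Fintype.linearCombination_apply]
  have hyu : ∀ a, hermForm 4 F q (y a) u = 0 := fun a => by
    rw [hy, hermForm_sum_left]
    simp [hru]
  have huy : ∀ a, hermForm 4 F q u (y a) = 0 := fun a => by
    rw [← hermForm_pow_q hF, hyu, zero_pow_q hF]
  have hyf : ∀ a, hermForm 4 F q (y a) f = 0 := fun a => by
    rw [hy, hermForm_sum_left]
    simp [hrf]
  have hyr : ∀ a l, hermForm 4 F q (y a) (r l) = a l := fun a l => by
    rw [hy, hermForm_sum_left]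
    simp [hrr]
  have hyy : ∀ a b, hermForm 4 F q (y a) (y b) = hermForm 2 F q a b := fun a b => by
    conv_lhs => rw [hy b]
    rw [hermForm_sum_right hF]
    simp only [hyr, hermForm_apply]
    exact Finset.sum_congr rfl fun i _ => mul_comm _ _
  -- orthogonality to `u` is preserved
  have hperp : ∀ v, hermForm 4 F q v u = 0 → hermForm 4 F q (M *ᵥ v) u = 0 := by
    intro v hv
    have h1 : M *ᵥ (μ⁻¹ • u) = u := by
      rw [Matrix.mulVec_smul, hMu, smul_smul, inv_mul_cancel₀ hμ, one_smul]
    rw [← h1, hM, hermForm_smul_right, hv, mul_zero]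
  -- the induced map
  let Al : (Fin 2 → F) →ₗ[F] (Fin 2 → F) :=
    { toFun := fun a l => hermForm 4 F q (M *ᵥ y a) (r l)
      map_add' := fun a b => by
        funext l
        simp [Matrix.mulVec_add, hermForm_add_left]
      map_smul' := fun c a => by
        funext l
        simp [Matrix.mulVec_smul, hermForm_smul_left] }
  let φ : (Fin 2 → F) →ₗ[F] F :=
    { toFun := fun a => hermForm 4 F q (M *ᵥ y a) f
      map_add' := fun a b => by
        simp [Matrix.mulVec_add, hermForm_add_left]
      map_smul' := fun c a => by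
        simp [Matrix.mulVec_smul, hermForm_smul_left] }
  have hdec : ∀ a, M *ᵥ y a = φ a • u + y (Al a) := by
    intro a
    conv_lhs => rw [hW.span (M *ᵥ y a)]
    have h1 : hermForm 4 F q (M *ᵥ y a) u = 0 := hperp _ (hyu a)
    simp only [Fin.sum_univ_one, Matrix.cons_val_zero, h1, zero_smul, add_zero]
    rw [hy (Al a)]
    rfl
  let A := LinearMap.toMatrix' Al
  have hA : ∀ a, A *ᵥ a = Al a := fun a => LinearMap.toMatrix'_mulVec Al a
  have huM : ∀ a, hermForm 4 F q u (M *ᵥ y a) = 0 := fun a => by
    rw [← hermForm_pow_q hF, hperp _ (hyu a), zero_pow_q hF]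
  have hApres : Preserves q A := by
    intro a b
    rw [hA, hA, ← hyy, ← hyy, ← hM (y a) (y b)]
    rw [hdec a, hdec b]
    simp only [hermForm_add_left, hermForm_add_right hF, hermForm_smul_left, hermForm_smul_right,
      huu, huy, hyu]
    ring
  obtain ⟨w, l, hw0, hAw, hcase⟩ := exists_eigen2' hF A hApres φ μ
  let z := y w
  have hMz : M *ᵥ z = φ w • u + l • z := by
    simp only [z]
    rw [hdec w, ← hA, hAw, map_smul]
  have hzz : hermForm 4 F q z z = hermForm 2 F q w w := hyy w w
  have hz0 : z ≠ 0 := by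
    intro h
    apply hw0
    funext i
    have := hyr w i
    rw [show y w = 0 from h, hermForm_zero_left] at this
    exact this.symm
  have hzu : hermForm 4 F q z u = 0 := hyu w
  have huz : hermForm 4 F q u z = 0 := huy w
  have hzf : hermForm 4 F q z f = 0 := hyf w
  by_cases hN : hermForm 2 F q w w = 0
  · -- a totally isotropic plane
    right
    refine ⟨![u, z], ?_, ?_, ?_⟩
    · rw [LinearIndependent.pair_iff]
      intro a b hab
      have h1 := congrArg (fun v => hermForm 4 F q v f) hab
      simp only [hermForm_add_left, hermForm_smul_left, huf, hzf, hermForm_zero_left] at h1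
      have ha : a = 0 := by simpa using h1
      subst ha
      refine ⟨rfl, ?_⟩
      simp only [zero_smul, zero_add] at hab
      exact (smul_eq_zero.mp hab).resolve_right hz0
    · intro i j
      fin_cases i <;> fin_cases j
      · simpa using huu
      · simpa using huz
      · simpa using hzu
      · simpa [hzz] using hN
    · intro i
      have hu' : u ∈ Submodule.span F (Set.range ![u, z]) :=
        Submodule.subset_span ⟨0, rfl⟩
      have hz' : z ∈ Submodule.span F (Set.range ![u, z]) :=
        Submodule.subset_span ⟨1, rfl⟩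
      fin_cases i
      · change M *ᵥ u ∈ _
        rw [hMu]
        exact Submodule.smul_mem _ _ hu'
      · change M *ᵥ z ∈ _
        rw [hMz]
        exact Submodule.add_mem _ (Submodule.smul_mem _ _ hu') (Submodule.smul_mem _ _ hz')
  · left
    rcases hcase with h | h | h
    · exact absurd h hN
    · -- shift by a multiple of `u`
      have hd : l - μ ≠ 0 := sub_ne_zero.mpr h
      let k := φ w / (l - μ)
      have hk : k * (l - μ) = φ w := by
        simp only [k]
        field_simp
      refine ⟨z + k • u, ?_, l, ?_⟩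
      · simp only [hermForm_add_left, hermForm_add_right hF, hermForm_smul_left, hermForm_smul_right,
          huu, huz, hzu, hzz]
        simpa using hN
      · rw [Matrix.mulVec_add, Matrix.mulVec_smul, hMu, hMz, smul_add, smul_smul, smul_smul, ← hk]
        funext i
        simp only [Pi.add_apply, Pi.smul_apply, smul_eq_mul]
        ring
    · refine ⟨z, ?_, l, ?_⟩
      · rw [hzz]
        exact hN
      · rw [hMz, h, zero_smul, zero_add]

/-- The orthogonal complement. -/
def perp (q : ℕ) {n : ℕ} (U : Submodule F (Fin n → F)) : Submodule F (Fin n → F) where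
  carrier := {v | ∀ u ∈ U, hermForm n F q v u = 0}
  add_mem' := fun {a b} ha hb u hu => by rw [hermForm_add_left, ha u hu, hb u hu, add_zero]
  zero_mem' := fun u _ => hermForm_zero_left n u
  smul_mem' := fun c a ha u hu => by
    change hermForm n F q (c • a) u = 0
    rw [hermForm_smul_left, ha u hu, mul_zero]

theorem mem_perp {n : ℕ} {U : Submodule F (Fin n → F)} {v : Fin n → F} :
    v ∈ perp q U ↔ ∀ u ∈ U, hermForm n F q v u = 0 := Iff.rfl

theorem finrank_perp (hF : Fintype.card F = q ^ 2) {n : ℕ} (U : Submodule F (Fin n → F)) :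
    finrank F U + finrank F (perp q U) = n := by
  classical
  let k := finrank F U
  let b : Basis (Fin k) F U := Module.finBasis F U
  let s : Fin k → Fin n → F := fun i => (b i : Fin n → F)
  have hs : LinearIndependent F s := by
    have := b.linearIndependent
    exact this.map' U.subtype (Submodule.ker_subtype U)
  obtain ⟨t', ht'⟩ := exists_dual hF s hs
  let T : (Fin n → F) →ₗ[F] (Fin k → F) :=
    { toFun := fun v i => hermForm n F q v (s i)
      map_add' := fun u v => by
        funext i
        simp [hermForm_add_left]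
      map_smul' := fun a v => by
        funext i
        simp [hermForm_smul_left] }
  have hT : Function.Surjective T := by
    intro c
    refine ⟨∑ j, c j • t' j, ?_⟩
    funext i
    change hermForm n F q (∑ j, c j • t' j) (s i) = c i
    rw [hermForm_sum_left]
    simp [ht']
  have hker : LinearMap.ker T = perp q U := by
    ext v
    constructor
    · intro hv u hu
      have hv' : ∀ i, hermForm n F q v (s i) = 0 := fun i => congrFun (LinearMap.mem_ker.mp hv) i
      have hu' : ∀ x : U, (x : Fin n → F) = ∑ i, (b.repr x i) • s i := by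
        intro x
        have h := congrArg (U.subtype) (b.sum_repr x)
        rw [map_sum] at h
        simp only [map_smul, Submodule.subtype_apply] at h
        exact h.symm
      have h3 : hermForm n F q v u = hermForm n F q v (∑ i, (b.repr ⟨u, hu⟩ i) • s i) :=
        congrArg _ (hu' ⟨u, hu⟩)
      rw [h3, hermForm_sum_right hF]
      simp [hv']
    · intro hv
      apply LinearMap.mem_ker.mpr
      funext i
      exact hv _ (b i).2
  have h := LinearMap.finrank_range_add_finrank_ker T
  rw [LinearMap.range_eq_top.mpr hT, finrank_top, hker] at h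
  simpa using h

/-- A form-preserving matrix maps an invariant subspace onto itself. -/
theorem exists_preimage (hF : Fintype.card F = q ^ 2) {n : ℕ} (M : Matrix (Fin n) (Fin n) F)
    (hM : Preserves q M) {U : Submodule F (Fin n → F)} (hU : ∀ x ∈ U, M *ᵥ x ∈ U) {u : Fin n → F}
    (hu : u ∈ U) : ∃ u' ∈ U, M *ᵥ u' = u := by
  let f : U →ₗ[F] U := (Matrix.mulVecLin M).restrict hU
  have hinj : Function.Injective f := by
    intro a b hab
    have h1 : M *ᵥ a.1 = M *ᵥ b.1 := congrArg Subtype.val hab
    apply Subtype.ext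
    have h2 := (Matrix.mulVec_injective_iff_isUnit.mpr (isUnit_of_preserves hF M hM)) h1
    exact h2
  have hsurj : Function.Surjective f := LinearMap.injective_iff_surjective.mp hinj
  obtain ⟨v, hv⟩ := hsurj ⟨u, hu⟩
  exact ⟨v.1, v.2, congrArg Subtype.val hv⟩

theorem perp_inv (hF : Fintype.card F = q ^ 2) {n : ℕ} (M : Matrix (Fin n) (Fin n) F)
    (hM : Preserves q M) {U : Submodule F (Fin n → F)} (hU : ∀ x ∈ U, M *ᵥ x ∈ U) :
    ∀ x ∈ perp q U, M *ᵥ x ∈ perp q U := by
  intro x hx u hu
  obtain ⟨u', hu', rfl⟩ := exists_preimage hF M hM hU hu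
  rw [hM]
  exact hx u' hu'

/-- The dichotomy. -/
theorem dichotomy (hF : Fintype.card F = q ^ 2) (M : Matrix (Fin 4) (Fin 4) F)
    (hM : Preserves q M) : Concl q M := by
  classical
  -- a minimal invariant subspace
  let P : Set (Submodule F (Fin 4 → F)) := {U | U ≠ ⊥ ∧ ∀ x ∈ U, M *ᵥ x ∈ U}
  have hP : P.Nonempty := ⟨⊤, by
    refine ⟨?_, fun _ _ => Submodule.mem_top⟩
    intro h
    have h1 : finrank F (⊤ : Submodule F (Fin 4 → F)) = 4 := by simp
    rw [h] at h1
    simp at h1, ⟩
  obtain ⟨U, ⟨hU0, hUinv⟩, hUmin⟩ := wellFounded_lt.has_min P hP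
  have hmin : ∀ U' : Submodule F (Fin 4 → F), U' ≤ U → (∀ x ∈ U', M *ᵥ x ∈ U') → U' = ⊥ ∨ U' = U := by
    intro U' hle hinv
    by_contra hcon
    push Not at hcon
    exact hUmin U' ⟨hcon.1, hinv⟩ (lt_of_le_of_ne hle hcon.2)
  have hdim := finrank_perp (q := q) hF U
  have hUpos : finrank F U ≠ 0 := fun h => hU0 (Submodule.finrank_eq_zero.mp h)
  have hperpinv := perp_inv hF M hM hUinv
  rcases hmin (U ⊓ perp q U) inf_le_left (fun x hx => ⟨hUinv x hx.1, hperpinv x hx.2⟩) with hcap | hcap
  · -- nondegenerate
    let h : U → U → F := fun x y => hermForm 4 F q x.1 y.1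
    have hh : IsHerm q h :=
      { add_left := fun x y z => hermForm_add_left _ _ _ _
        smul_left := fun c x y => hermForm_smul_left _ _ _ _
        herm := fun x y => (hermForm_pow_q hF _ _ _).symm
        nondeg := fun x hx => by
          have h1 : x.1 ∈ U ⊓ perp q U := ⟨x.2, fun u hu => hx ⟨u, hu⟩⟩
          rw [hcap] at h1
          exact Subtype.ext ((Submodule.mem_bot F).mp h1) }
    let g : U →ₗ[F] U := (Matrix.mulVecLin M).restrict hUinv
    have hodd : Odd (finrank F U) := by
      apply odd_finrank hF hUpos h hh g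
      · intro x y
        exact hM x.1 y.1
      · intro W hW
        have hW' := hmin (W.map U.subtype) (by
            rintro _ ⟨x, -, rfl⟩
            exact x.2) (by
            rintro _ ⟨x, hx, rfl⟩
            exact ⟨g x, hW x hx, rfl⟩)
        rcases hW' with h1 | h1
        · left
          exact eq_bot_of_map_eq_bot U.subtype U.injective_subtype h1
        · right
          rw [eq_top_iff]
          intro x _
          have hx : x.1 ∈ W.map U.subtype := by rw [h1]; exact x.2
          obtain ⟨z, hz, hzx⟩ := hx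
          have : z = x := Subtype.ext hzx
          rwa [← this]
    have h13 : finrank F U = 1 ∨ finrank F U = 3 := by
      obtain ⟨k, hk⟩ := hodd
      omega
    left
    rcases h13 with h1 | h3
    · obtain ⟨v, hv, hv0, hall⟩ := exists_gen U h1
      obtain ⟨c, hc⟩ := hall _ (hUinv v hv)
      refine ⟨v, ?_, c, hc⟩
      intro hvv
      apply hv0
      have h1 : v ∈ U ⊓ perp q U := by
        refine ⟨hv, fun u hu => ?_⟩
        obtain ⟨d, rfl⟩ := hall u hu
        rw [hermForm_smul_right, hvv, mul_zero]
      rw [hcap] at h1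
      exact (Submodule.mem_bot F).mp h1
    · have h1 : finrank F (perp q U) = 1 := by omega
      obtain ⟨v, hv, hv0, hall⟩ := exists_gen (perp q U) h1
      obtain ⟨c, hc⟩ := hall _ (hperpinv v hv)
      refine ⟨v, ?_, c, hc⟩
      intro hvv
      apply hv0
      -- `v` is orthogonal to everything
      have hsup : U ⊔ perp q U = ⊤ := by
        apply Submodule.eq_top_of_finrank_eq
        have h2 := Submodule.finrank_sup_add_finrank_inf_eq U (perp q U)
        rw [hcap] at h2
        simp only [finrank_bot, add_zero] at h2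
        rw [h2]
        simp [hdim]
      apply hermForm_nondegenerate_left hF 4
      intro w
      have hw : w ∈ U ⊔ perp q U := by rw [hsup]; exact Submodule.mem_top
      obtain ⟨a, ha, b, hb, rfl⟩ := Submodule.mem_sup.mp hw
      rw [hermForm_add_right hF, hv a ha, zero_add]
      obtain ⟨d, rfl⟩ := hall b hb
      rw [hermForm_smul_right, hvv, mul_zero]
  · -- totally isotropic
    have hle : U ≤ perp q U := by
      have : U ⊓ perp q U ≤ perp q U := inf_le_right
      rwa [hcap] at this
    have hmono : finrank F U ≤ finrank F (perp q U) := Submodule.finrank_mono hle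
    have h12 : finrank F U = 1 ∨ finrank F U = 2 := by omega
    rcases h12 with h1 | h2
    · obtain ⟨v, hv, hv0, hall⟩ := exists_gen U h1
      obtain ⟨c, hc⟩ := hall _ (hUinv v hv)
      exact concl_of_isotropic hF M hM hv0 (hle hv v hv) hc
    · right
      let b : Basis (Fin 2) F U := Module.finBasisOfFinrankEq F U h2
      let s : Fin 2 → Fin 4 → F := fun i => (b i : Fin 4 → F)
      have hs : LinearIndependent F s :=
        b.linearIndependent.map' U.subtype (Submodule.ker_subtype U)
      have hspan : Submodule.span F (Set.range s) = U := by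
        have h1 : Set.range s = U.subtype '' Set.range b := by
          rw [← Set.range_comp]
          rfl
        rw [h1, ← Submodule.map_span, b.span_eq, Submodule.map_top, Submodule.range_subtype]
      refine ⟨s, hs, fun i j => hle (b i).2 _ (b j).2, fun i => ?_⟩
      rw [hspan]
      exact hUinv _ (b i).2

end Cfsg.Agent.Lib.Cover2.UDich
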