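import Mathlib
import Cfsg.Agent.Lib.Cover2.UDich

/-!
# `PSU_4(q)` is the union of the conjugates of two proper subgroups
-/

set_option autoImplicit false
set_option linter.unusedSectionVars false
set_option linter.unusedSimpArgs false
set_option linter.unusedVariables false
set_option linter.deprecated false

open scoped Matrix
open Cfsg
open Cfsg.Agent.Lib.Classical.Herm.Basic Cfsg.Agent.Lib.Classical.Herm.GU
open Cfsg.Agent.Lib.Classical.Herm.SU Cfsg.Agent.Lib.Classical.Herm.HermOnb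
open Cfsg.Agent.Lib.Classical.Herm.Form Cfsg.Agent.Lib.Classical.Herm.TIFrame
open Cfsg.Agent.Lib.Classical.Herm.TIStab
open Cfsg.Agent.Lib.Cover2.UParity Cfsg.Agent.Lib.Cover2.UDich
open Module

namespace Cfsg.Agent.Lib.Cover2.PSU4

variable {F : Type*} [Field F] [Fintype F] {q : ℕ}

/-- The underlying matrix. -/
abbrev mat {n : ℕ} (g : SU n F q) : Matrix (Fin n) (Fin n) F :=
  ((g : Matrix.SpecialLinearGroup (Fin n) F) : Matrix (Fin n) (Fin n) F)

theorem mat_mul {n : ℕ} (g h : SU n F q) : mat (g * h) = mat g * mat h := rfl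

theorem mat_one {n : ℕ} : mat (1 : SU n F q) = 1 := rfl

theorem mat_inv_mul {n : ℕ} (g : SU n F q) : mat g⁻¹ * mat g = 1 := by
  rw [← mat_mul, inv_mul_cancel, mat_one]

theorem mat_mul_inv {n : ℕ} (g : SU n F q) : mat g * mat g⁻¹ = 1 := by
  rw [← mat_mul, mul_inv_cancel, mat_one]

theorem inv_act {n : ℕ} (g : SU n F q) (v : Fin n → F) : mat g⁻¹ *ᵥ (mat g *ᵥ v) = v := by
  rw [Matrix.mulVec_mulVec, mat_inv_mul, Matrix.one_mulVec]

/-- The stabiliser of a subspace in `SU_n`. -/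
def stab (hF : Fintype.card F = q ^ 2) {n : ℕ} (W : Submodule F (Fin n → F)) : Subgroup (SU n F q) where
  carrier := {g | ∀ v ∈ W, mat g *ᵥ v ∈ W}
  mul_mem' := fun {a b} ha hb v hv => by
    rw [mat_mul, ← Matrix.mulVec_mulVec]
    exact ha _ (hb v hv)
  one_mem' := fun v hv => by
    rw [mat_one, Matrix.one_mulVec]
    exact hv
  inv_mem' := fun {a} ha v hv => by
    obtain ⟨v', hv', rfl⟩ := exists_preimage hF (mat a) (preserves_su a) ha hv
    rw [inv_act]
    exact hv'

theorem mem_stab (hF : Fintype.card F = q ^ 2) {n : ℕ} {W : Submodule F (Fin n → F)} {g : SU n F q} :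
    g ∈ stab hF W ↔ ∀ v ∈ W, mat g *ᵥ v ∈ W := Iff.rfl

/-- A linear map sending generators into a subspace sends their span there. -/
theorem mulVec_mem_of_span {n k : ℕ} (A : Matrix (Fin n) (Fin n) F) {s : Fin k → Fin n → F}
    {W : Submodule F (Fin n → F)} (h : ∀ i, A *ᵥ s i ∈ W) :
    ∀ v ∈ Submodule.span F (Set.range s), A *ᵥ v ∈ W := by
  intro v hv
  have h1 : Submodule.map (Matrix.mulVecLin A) (Submodule.span F (Set.range s)) ≤ W := by
    rw [Submodule.map_span_le]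
    rintro _ ⟨i, rfl⟩
    exact h i
  exact h1 ⟨v, hv, rfl⟩

/-- Conjugation into a stabiliser. -/
theorem conj_mem (hF : Fintype.card F = q ^ 2) {n k : ℕ} (s₀ s : Fin k → Fin n → F) (a : Fin k → F)
    (ha : ∀ i, a i ≠ 0) (x : SU n F q) (hx : ∀ i, mat x *ᵥ s₀ i = a i • s i) (g : SU n F q)
    (hg : ∀ i, mat g *ᵥ s i ∈ Submodule.span F (Set.range s)) :
    x⁻¹ * g * x ∈ stab hF (Submodule.span F (Set.range s₀)) := by
  have h1 : ∀ v ∈ Submodule.span F (Set.range s₀), mat x *ᵥ v ∈ Submodule.span F (Set.range s) :=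
    mulVec_mem_of_span _ (fun i => by
      rw [hx]
      exact Submodule.smul_mem _ _ (Submodule.subset_span ⟨i, rfl⟩))
  have h2 : ∀ v ∈ Submodule.span F (Set.range s), mat g *ᵥ v ∈ Submodule.span F (Set.range s) :=
    mulVec_mem_of_span _ hg
  have h3 : ∀ v ∈ Submodule.span F (Set.range s), mat x⁻¹ *ᵥ v ∈ Submodule.span F (Set.range s₀) :=
    mulVec_mem_of_span _ (fun i => by
      have h4 : s i = (a i)⁻¹ • (mat x *ᵥ s₀ i) := by
        rw [hx, smul_smul, inv_mul_cancel₀ (ha i), one_smul]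
      rw [h4, Matrix.mulVec_smul, inv_act]
      exact Submodule.smul_mem _ _ (Submodule.subset_span ⟨i, rfl⟩))
  intro v hv
  rw [mat_mul, mat_mul, ← Matrix.mulVec_mulVec, ← Matrix.mulVec_mulVec]
  exact h3 _ (h2 _ (h1 v hv))

/-- `SU_4` carries the first basis vector to any non-isotropic line. -/
theorem exists_su_line (hF : Fintype.card F = q ^ 2) (v : Fin 4 → F) (hv : hermForm 4 F q v v ≠ 0) :
    ∃ (x : SU 4 F q) (d : F), d ≠ 0 ∧ mat x *ᵥ (Pi.single 0 1 : Fin 4 → F) = d • v := by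
  classical
  have hq := two_le_q hF
  have hpow : (hermForm 4 F q v v)⁻¹ ^ q = (hermForm 4 F q v v)⁻¹ := by
    rw [inv_pow, hermForm_self_pow_q hF]
  obtain ⟨c, hc⟩ := exists_norm_eq hF _ (inv_ne_zero hv) hpow
  have hc0 : c ≠ 0 := by
    rintro rfl
    rw [zero_pow (by omega)] at hc
    exact inv_ne_zero hv hc.symm
  let v' := c • v
  have hv' : hermForm 4 F q v' v' = 1 := by
    simp only [v']
    rw [hermForm_smul_left, hermForm_smul_right, ← mul_assoc, ← pow_succ', hc,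
      inv_mul_cancel₀ hv]
  let f : Fin 1 → Fin 4 → F := fun _ => v'
  have hf : IsFrame q f := by
    intro i j
    have : i = j := Subsingleton.elim _ _
    simp [this, f, hv']
  obtain ⟨g, hg, hgf⟩ := exists_completion hF f hf 3 (by norm_num)
  let Col : Fin 4 → Fin 4 → F := Fin.cons v' g
  have hCol : IsFrame q Col := by
    intro i j
    induction i using Fin.cases with
    | zero =>
      induction j using Fin.cases with
      | zero => simpa [Col] using hv'
      | succ j =>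
        have h1 : hermForm 4 F q (g j) v' = 0 := hgf 0 j
        have h2 : hermForm 4 F q v' (g j) = 0 := by
          rw [← hermForm_pow_q hF, h1, zero_pow_q hF]
        simpa [Col, Fin.succ_ne_zero, (Fin.succ_ne_zero j).symm] using h2
    | succ i =>
      induction j using Fin.cases with
      | zero =>
        have h1 : hermForm 4 F q (g i) v' = 0 := hgf 0 i
        simpa [Col, Fin.succ_ne_zero] using h1
      | succ j =>
        simpa [Col, Fin.succ_inj] using hg i j
  let G : Matrix (Fin 4) (Fin 4) F := Matrix.of fun i j => Col j i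
  have hG : Preserves q G := (preserves_iff_frame hF G).2 hCol
  let d := G.det
  have hd : d ^ (q + 1) = 1 := det_pow_succ hF G hG
  have hd0 : d ≠ 0 := by
    intro h
    rw [h, zero_pow (by omega)] at hd
    exact zero_ne_one hd
  let e : Fin 4 → F := fun i => if i = 3 then d⁻¹ else 1
  have he : ∀ k, e k ^ (q + 1) = 1 := by
    intro k
    simp only [e]
    split_ifs
    · rw [inv_pow, hd, inv_one]
    · exact one_pow _
  have hD : Preserves q (Matrix.diagonal e) := preserves_diagonal e he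
  have hdet : (G * Matrix.diagonal e).det = 1 := by
    rw [Matrix.det_mul, Matrix.det_diagonal, Fin.prod_univ_four]
    simp [e]
    exact mul_inv_cancel₀ hd0
  refine ⟨mkSU _ hdet (preserves_mul hG hD), c, hc0, ?_⟩
  change (G * Matrix.diagonal e) *ᵥ _ = _
  rw [← Matrix.mulVec_mulVec]
  have h1 : Matrix.diagonal e *ᵥ (Pi.single 0 1 : Fin 4 → F) = Pi.single 0 1 := by
    funext i
    simp only [Matrix.mulVec_diagonal, e]
    fin_cases i <;> simp
  rw [h1, mulVec_single_col]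
  rfl

/-- `SU_4` is transitive on totally isotropic planes. -/
theorem exists_su_ti (hF : Fintype.card F = q ^ 2) (s s' : TF F q 4 2) :
    ∃ (x : SU 4 F q) (a : F), a ≠ 0 ∧ mat x *ᵥ s.1 0 = a • s'.1 0 ∧ mat x *ᵥ s.1 1 = s'.1 1 := by
  classical
  obtain ⟨g, hg⟩ := exists_GU_of_TF hF (k := 2) (m := 0) (by norm_num) s s'
  obtain ⟨t, r, hW⟩ := exists_witt hF (k := 2) (m := 0) (n := 4) (by norm_num) s'.1 s'.2.1 s'.2.2
  have hgdet : (g.1 : Matrix (Fin 4) (Fin 4) F).det ^ (q + 1) = 1 := det_pow_succ hF _ g.2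
  let u : Fˣ := (Matrix.GeneralLinearGroup.det g.1)⁻¹
  have hu : u ^ (q + 1) = 1 := by
    apply Units.ext
    simp only [u, Units.val_pow_eq_pow_val, Units.val_inv_eq_inv_val, Units.val_one, inv_pow]
    have : ((Matrix.GeneralLinearGroup.det g.1 : Fˣ) : F) = (g.1 : Matrix (Fin 4) (Fin 4) F).det := rfl
    rw [this, hgdet, inv_one]
  obtain ⟨y, hydet, a, ha, b, hy⟩ := exists_hyp hF (s'.2.2 0 0) (hW.tt 0 0) (by simpa using hW.st 0 0) u hu
  have hX : Preserves q ((y.1 : Matrix (Fin 4) (Fin 4) F) * (g.1 : Matrix (Fin 4) (Fin 4) F)) :=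
    preserves_mul y.2 g.2
  have hdet : ((y.1 : Matrix (Fin 4) (Fin 4) F) * (g.1 : Matrix (Fin 4) (Fin 4) F)).det = 1 := by
    rw [Matrix.det_mul, hydet]
    simp only [u, Units.val_inv_eq_inv_val]
    have : ((Matrix.GeneralLinearGroup.det g.1 : Fˣ) : F) = (g.1 : Matrix (Fin 4) (Fin 4) F).det := rfl
    rw [this]
    apply inv_mul_cancel₀
    intro h
    rw [h, zero_pow (by omega)] at hgdet
    exact zero_ne_one hgdet
  refine ⟨mkSU _ hdet hX, a, ha, ?_, ?_⟩
  · change ((y.1 : Matrix (Fin 4) (Fin 4) F) * (g.1 : Matrix (Fin 4) (Fin 4) F)) *ᵥ _ = _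
    rw [← Matrix.mulVec_mulVec, hg 0]
    change act y (s'.1 0) = _
    rw [hy, hW.st 0 0, s'.2.2 0 0]
    simp only [if_true, mul_one, mul_zero, zero_smul, add_zero]
    rw [sub_smul, one_smul]
    abel
  · change ((y.1 : Matrix (Fin 4) (Fin 4) F) * (g.1 : Matrix (Fin 4) (Fin 4) F)) *ᵥ _ = _
    rw [← Matrix.mulVec_mulVec, hg 1]
    change act y (s'.1 1) = _
    rw [hy, hW.st 1 0, s'.2.2 1 0]
    simp

/-- The image in a quotient of a proper subgroup containing the kernel is proper. -/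
theorem map_ne_top {G : Type*} [Group G] (Z : Subgroup G) [Z.Normal] (H : Subgroup G) (hZ : Z ≤ H)
    (hH : H ≠ ⊤) : H.map (QuotientGroup.mk' Z) ≠ ⊤ := by
  intro h
  apply hH
  rw [eq_top_iff]
  intro x _
  have hx : (QuotientGroup.mk' Z x) ∈ H.map (QuotientGroup.mk' Z) := by rw [h]; exact Subgroup.mem_top _
  obtain ⟨y, hy, hyx⟩ := hx
  have h1 : y⁻¹ * x ∈ Z := by
    have : (QuotientGroup.mk y : G ⧸ Z) = QuotientGroup.mk x := hyx
    exact QuotientGroup.eq.mp this
  have h2 : x = y * (y⁻¹ * x) := by group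
  rw [h2]
  exact H.mul_mem hy (hZ h1)

/-- Central elements stabilise every subspace. -/
theorem center_le_stab (hF : Fintype.card F = q ^ 2) {n : ℕ} (W : Submodule F (Fin n → F)) :
    Subgroup.center (SU n F q) ≤ stab hF W := by
  intro z hz v hv
  obtain ⟨c, hc⟩ := center_scalar hF z hz
  change ((z : Matrix.SpecialLinearGroup (Fin n) F) : Matrix (Fin n) (Fin n) F) *ᵥ v ∈ W
  rw [hc, scalar_mulVec']
  exact W.smul_mem _ hv

/-- `PSU_4` is covered by the conjugates of two proper subgroups. -/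
theorem cover2 (hF : Fintype.card F = q ^ 2) :
    ∃ H K : Subgroup (Cfsg.PSU 4 F q), H ≠ ⊤ ∧ K ≠ ⊤ ∧ ∀ g : Cfsg.PSU 4 F q, ∃ x : Cfsg.PSU 4 F q,
      x * g * x⁻¹ ∈ H ∨ x * g * x⁻¹ ∈ K := by
  classical
  have hq := two_le_q hF
  have hq0 : q ≠ 0 := by omega
  have hneg : (-1 : F) ^ q = -1 := by rw [pow_q_neg hF, one_pow]
  obtain ⟨a, ha⟩ := exists_norm_eq hF (-1) (neg_ne_zero.mpr one_ne_zero) hneg
  have ha0 : a ≠ 0 := by
    rintro rfl
    rw [zero_pow (by omega)] at ha
    exact (neg_ne_zero.mpr one_ne_zero) ha.symm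
  have haq : a * a ^ q = -1 := by rw [← pow_succ']; exact ha
  -- the data
  let s₀ : Fin 1 → Fin 4 → F := fun _ => Pi.single 0 1
  let s₁ : Fin 2 → Fin 4 → F := ![![1, a, 0, 0], ![0, 0, 1, a]]
  let s₂ : Fin 2 → Fin 4 → F := ![![1, 0, a, 0], ![0, 1, 0, a]]
  let Z := Subgroup.center (SU 4 F q)
  let Ht := stab hF (Submodule.span F (Set.range s₀))
  let Kt := stab hF (Submodule.span F (Set.range s₁))
  have hform : ∀ u v : Fin 4 → F, hermForm 4 F q u v =
      u 0 * v 0 ^ q + u 1 * v 1 ^ q + u 2 * v 2 ^ q + u 3 * v 3 ^ q := by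
    intro u v
    simp [hermForm, Fin.sum_univ_four]
  have hs₁ : LinearIndependent F s₁ := by
    rw [LinearIndependent.pair_iff]
    intro p r h
    have h0 := congrFun h 0
    have h2 := congrFun h 2
    simp [s₁] at h0 h2
    exact ⟨h0, h2⟩
  have hs₂ : LinearIndependent F s₂ := by
    rw [LinearIndependent.pair_iff]
    intro p r h
    have h0 := congrFun h 0
    have h1 := congrFun h 1
    simp [s₂] at h0 h1
    exact ⟨h0, h1⟩
  have hs₁t : ∀ i j, hermForm 4 F q (s₁ i) (s₁ j) = 0 := by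
    intro i j
    rw [hform]
    fin_cases i <;> fin_cases j <;> simp [s₁, haq, zero_pow hq0]
  have hs₂t : ∀ i j, hermForm 4 F q (s₂ i) (s₂ j) = 0 := by
    intro i j
    rw [hform]
    fin_cases i <;> fin_cases j <;> simp [s₂, haq, zero_pow hq0]
  -- proper subgroups
  have hHt : Ht ≠ ⊤ := by
    intro h
    have he1 : hermForm 4 F q (Pi.single 1 1) (Pi.single 1 1) ≠ 0 := by
      rw [hform]
      simp [zero_pow hq0]
    obtain ⟨x, d, hd, hx⟩ := exists_su_line hF (Pi.single 1 1) he1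
    have hmem : x ∈ Ht := by rw [h]; exact Subgroup.mem_top _
    have h1 := hmem (s₀ 0) (Submodule.subset_span ⟨0, rfl⟩)
    have h2 : mat x *ᵥ s₀ 0 = d • (Pi.single 1 1 : Fin 4 → F) := hx
    rw [h2] at h1
    -- the functional `v ↦ v 1` vanishes on the span
    have h3 : Submodule.span F (Set.range s₀) ≤ LinearMap.ker (LinearMap.proj (R := F) (φ := fun _ : Fin 4 => F) 1) := by
      rw [Submodule.span_le]
      rintro _ ⟨i, rfl⟩
      simp [s₀]
    have h4 := h3 h1
    simp at h4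
    exact hd h4
  have hKt : Kt ≠ ⊤ := by
    intro h
    obtain ⟨x, d, hd, hx0, hx1⟩ := exists_su_ti hF ⟨s₁, hs₁, hs₁t⟩ ⟨s₂, hs₂, hs₂t⟩
    have hmem : x ∈ Kt := by rw [h]; exact Subgroup.mem_top _
    have h1 := hmem (s₁ 1) (Submodule.subset_span ⟨1, rfl⟩)
    have h2 : mat x *ᵥ s₁ 1 = s₂ 1 := hx1
    rw [h2] at h1
    -- the functional `v ↦ v 1 - a * v 0`
    let ℓ : (Fin 4 → F) →ₗ[F] F :=
      LinearMap.proj (R := F) (φ := fun _ : Fin 4 => F) 1 - a • LinearMap.proj (R := F) (φ := fun _ : Fin 4 => F) 0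
    have hℓ : ∀ v, ℓ v = v 1 - a * v 0 := fun v => rfl
    have h3 : Submodule.span F (Set.range s₁) ≤ LinearMap.ker ℓ := by
      rw [Submodule.span_le]
      rintro _ ⟨i, rfl⟩
      fin_cases i <;> simp [s₁, hℓ]
    have h4 : ℓ (s₂ 1) = 0 := h3 h1
    rw [hℓ] at h4
    simp [s₂] at h4
  refine ⟨Ht.map (QuotientGroup.mk' Z), Kt.map (QuotientGroup.mk' Z),
    map_ne_top Z Ht (center_le_stab hF _) hHt, map_ne_top Z Kt (center_le_stab hF _) hKt, ?_⟩
  intro g
  obtain ⟨g', rfl⟩ := QuotientGroup.mk'_surjective Z g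
  rcases dichotomy hF (mat g') (preserves_su g') with ⟨v, hv, c, hc⟩ | ⟨s, hs, hst, hinv⟩
  · obtain ⟨x, d, hd, hx⟩ := exists_su_line hF v hv
    refine ⟨QuotientGroup.mk' Z x⁻¹, Or.inl ?_⟩
    have h1 : x⁻¹ * g' * x ∈ Ht := by
      apply conj_mem hF s₀ (fun _ => v) (fun _ => d) (fun _ => hd) x (fun _ => hx) g'
      intro _
      rw [hc]
      exact Submodule.smul_mem _ _ (Submodule.subset_span ⟨0, rfl⟩)
    refine ⟨_, h1, ?_⟩
    simp [map_mul]
  · obtain ⟨x, d, hd, hx0, hx1⟩ := exists_su_ti hF ⟨s₁, hs₁, hs₁t⟩ ⟨s, hs, hst⟩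
    refine ⟨QuotientGroup.mk' Z x⁻¹, Or.inr ?_⟩
    have h1 : x⁻¹ * g' * x ∈ Kt := by
      apply conj_mem hF s₁ s ![d, 1] ?_ x ?_ g' hinv
      · intro i
        fin_cases i
        · exact hd
        · exact one_ne_zero
      · intro i
        fin_cases i
        · exact hx0
        · simpa using hx1
    refine ⟨_, h1, ?_⟩
    simp [map_mul]

end Cfsg.Agent.Lib.Cover2.PSU4
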