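-- S2500 part (b): normal 2-covering of PSp_{2m}(F), char 2, by the orthogonal groups O+ and O-.
import Mathlib
import Cfsg.Agent.Lib.Cover2.Basic
import Cfsg.Agent.Lib.Classical.Orth.SpConj
import Cfsg.Agent.Lib.Classical.Witt.Index
import Cfsg.Agent.Lib.Classical.Symp.SpGL

set_option autoImplicit false

namespace Cfsg.Agent.Lib.Cover2.PSpTwo

open Matrix QuadraticMap Module Cfsg
open Cfsg.Agent.Lib.Classical.Symp.Basic
open Cfsg.Agent.Lib.Classical.Symp.SpGL
open Cfsg.Agent.Lib.Linalg.OrthModels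
open Cfsg.Agent.Lib.Classical.Orth.SpConj
open Cfsg.Agent.Lib.Cover2

variable {F : Type*} [Field F] [Fintype F] [CharP F 2] {m : ℕ}

/-- Abbreviation for the ambient matrix ring. -/
abbrev MM (m : ℕ) (F : Type*) [Field F] := Matrix (Fin m ⊕ Fin m) (Fin m ⊕ Fin m) F

/-- Quadratic forms polarising to the symplectic form. -/
def IsPolarForm (Q : QuadraticForm F (Fin m ⊕ Fin m → F)) : Prop :=
  ∀ u v, polar (⇑Q) u v = sympForm m F u v

theorem isPolar_plus : IsPolarForm (plusQ m F) := by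
  intro u v
  rw [polar_plusQ, polarP_apply, sympForm_apply]
  refine Finset.sum_congr rfl fun i _ => ?_
  have h2 : (2 : F) = 0 := CharTwo.two_eq_zero
  linear_combination (u (.inl i) * v (.inr i)) * h2

theorem polarBilin_eq {Q : QuadraticForm F (Fin m ⊕ Fin m → F)} (hQ : IsPolarForm Q) :
    polarBilin Q = sympBilin m F := by
  ext u v
  simpa using hQ _ _

theorem nondeg_of {Q : QuadraticForm F (Fin m ⊕ Fin m → F)} (hQ : IsPolarForm Q) :
    (polarBilin Q).Nondegenerate := by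
  rw [polarBilin_eq hQ]
  exact sympBilin_nondegenerate

theorem map_add_polar (Q : QuadraticForm F (Fin m ⊕ Fin m → F)) (x y : Fin m ⊕ Fin m → F) :
    Q (x + y) = Q x + Q y + polar (⇑Q) x y := by
  simp [polar]

/-- Dye: every symplectic matrix preserves a quadratic form polarising to the symplectic form. -/
theorem exists_invariant (A A' : Matrix (Fin m ⊕ Fin m) (Fin m ⊕ Fin m) F)
    (hA : ∀ u v, sympForm m F (A *ᵥ u) (A *ᵥ v) = sympForm m F u v) (hAA' : A * A' = 1) :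
    ∃ Q : QuadraticForm F (Fin m ⊕ Fin m → F), IsPolarForm Q ∧ ∀ x, Q (A *ᵥ x) = Q x := by
  classical
  have h2 : (2 : F) = 0 := CharTwo.two_eq_zero
  have hpol : IsPolarForm (plusQ m F) := isPolar_plus
  set Q₀ := plusQ m F with hQ₀
  let D : (Fin m ⊕ Fin m → F) → F := fun x => Q₀ (A *ᵥ x) - Q₀ x
  have hadd : ∀ x y, D (x + y) = D x + D y := by
    intro x y
    simp only [D, Matrix.mulVec_add, map_add_polar Q₀, hpol _ _, hA]
    ring
  have hsmul : ∀ (c : F) x, D (c • x) = c ^ 2 * D x := by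
    intro c x
    simp only [D, Matrix.mulVec_smul, QuadraticMap.map_smul, smul_eq_mul]
    ring
  obtain ⟨a, ha⟩ := exists_vector_of_additive (Q := Q₀) (nondeg_of hpol) D hadd hsmul
  have ha' : ∀ x, D x = (sympForm m F a x) ^ 2 := fun x => by
    rw [ha x, hpol]
  have hadj : ∀ y n, sympForm m F (A' *ᵥ y) n = sympForm m F y (A *ᵥ n) := by
    intro y n
    rw [← hA (A' *ᵥ y) n, Matrix.mulVec_mulVec, hAA', Matrix.one_mulVec]
  let W : Submodule F (Fin m ⊕ Fin m → F) := LinearMap.range (LinearMap.id + Matrix.mulVecLin A')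
  have hrefl : (sympBilin m F).IsRefl := sympBilin_isAlt.isRefl
  have hmem : a ∈ W := by
    have key := LinearMap.BilinForm.orthogonal_orthogonal (B := sympBilin m F) sympBilin_nondegenerate hrefl W
    rw [← key, LinearMap.BilinForm.mem_orthogonal_iff]
    intro n hn
    rw [LinearMap.BilinForm.mem_orthogonal_iff] at hn
    have h3 : ∀ y, sympForm m F y (n + A *ᵥ n) = 0 := by
      intro y
      have h4 := hn (y + A' *ᵥ y) ⟨y, by simp⟩
      have h5 : sympForm m F (y + A' *ᵥ y) n = 0 := h4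
      have h6 : sympForm m F (y + A' *ᵥ y) n = sympForm m F y n + sympForm m F (A' *ᵥ y) n := by
        simp [sympForm, add_dotProduct]
      rw [h6, hadj] at h5
      have h7 : sympForm m F y (n + A *ᵥ n) = sympForm m F y n + sympForm m F y (A *ᵥ n) := by
        simp [sympForm, mulVec_add, dotProduct_add]
      rw [h7]; exact h5
    have h8 : n + A *ᵥ n = 0 := by
      by_contra h
      obtain ⟨v, hv⟩ := exists_sympForm_ne h
      exact hv (h3 v)
    have h9 : A *ᵥ n = n := by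
      have h10 : A *ᵥ n = -n := by
        rw [eq_neg_iff_add_eq_zero, add_comm]; exact h8
      rw [h10]
      funext i
      simp [CharTwo.neg_eq]
    have h11 : D n = 0 := by simp [D, h9]
    rw [ha' n] at h11
    have h12 : sympForm m F a n = 0 := pow_eq_zero_iff (two_ne_zero) |>.1 h11
    change sympForm m F n a = 0
    rw [sympForm_swap, h12, neg_zero]
  obtain ⟨c, hc⟩ := hmem
  have hc' : c + A' *ᵥ c = a := hc
  let f : (Fin m ⊕ Fin m → F) →ₗ[F] F := sympBilin m F c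
  have hf : ∀ x, f x = sympForm m F c x := fun x => rfl
  refine ⟨Q₀ + linMulLin f f, ?_, ?_⟩
  · intro u v
    rw [← hpol u v]
    simp only [polar, _root_.add_apply, linMulLin_apply, map_add]
    linear_combination (f u * f v) * h2
  · intro x
    simp only [_root_.add_apply, linMulLin_apply]
    have h3 := ha' x
    have h4 : sympForm m F a x = f x + f (A *ᵥ x) := by
      rw [← hc', hf, hf, ← hadj]
      simp [sympForm, add_dotProduct]
    rw [h4] at h3
    have h5 : Q₀ (A *ᵥ x) = Q₀ x + (f x + f (A *ᵥ x)) ^ 2 := by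
      rw [← h3]; simp [D]
    rw [h5]
    linear_combination (f (A *ᵥ x) ^ 2 + f x * f (A *ᵥ x)) * h2

/-- The isometry group of a form, inside the symplectic group. -/
def O (Q : QuadraticForm F (Fin m ⊕ Fin m → F)) : Subgroup (symplecticGroup (Fin m) F) where
  carrier := {A | ∀ x, Q ((A : MM m F) *ᵥ x) = Q x}
  mul_mem' {a b} ha hb := by
    intro x
    have : ((a * b : symplecticGroup (Fin m) F) : MM m F) *ᵥ x =
        (a : MM m F) *ᵥ ((b : MM m F) *ᵥ x) := by
      rw [Matrix.mulVec_mulVec]; rfl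
    rw [this, ha, hb]
  one_mem' := by
    intro x
    simp
  inv_mem' {a} ha := by
    intro x
    have h := ha (((a⁻¹ : symplecticGroup (Fin m) F) : MM m F) *ᵥ x)
    have h1 : (a : MM m F) *ᵥ (((a⁻¹ : symplecticGroup (Fin m) F) : MM m F) *ᵥ x) = x := by
      rw [Matrix.mulVec_mulVec]
      have : (a : MM m F) * ((a⁻¹ : symplecticGroup (Fin m) F) : MM m F) = 1 := by
        rw [← Submonoid.coe_mul, mul_inv_cancel]; rfl
      rw [this, Matrix.one_mulVec]
    rw [h1] at h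
    exact h.symm

theorem mem_O {Q : QuadraticForm F (Fin m ⊕ Fin m → F)} {A : symplecticGroup (Fin m) F} :
    A ∈ O Q ↔ ∀ x, Q ((A : MM m F) *ᵥ x) = Q x := Iff.rfl

/-- The orthogonal group of a form is a proper subgroup. -/
theorem O_ne_top (hm : 2 ≤ m) {Q : QuadraticForm F (Fin m ⊕ Fin m → F)} (hQ : IsPolarForm Q) : O Q ≠ ⊤ := by
  classical
  have h2 : (2 : F) = 0 := CharTwo.two_eq_zero
  -- a nonzero vector of value not one
  have hex : ∃ w : Fin m ⊕ Fin m → F, w ≠ 0 ∧ Q w ≠ 1 := by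
    let i₀ : Fin m := ⟨0, by omega⟩
    let i₁ : Fin m := ⟨1, by omega⟩
    have hi : i₀ ≠ i₁ := by simp [i₀, i₁, Fin.ext_iff]
    let e₀ : Fin m ⊕ Fin m → F := Pi.single (.inl i₀) 1
    let e₁ : Fin m ⊕ Fin m → F := Pi.single (.inl i₁) 1
    have he₀ : e₀ ≠ 0 := by simp [e₀]
    have he₁ : e₁ ≠ 0 := by simp [e₁]
    by_cases h0 : Q e₀ = 1
    · by_cases h1 : Q e₁ = 1
      · refine ⟨e₀ + e₁, ?_, ?_⟩
        · intro h
          have := congrFun h (.inl i₀)
          simp [e₀, e₁, Pi.single_apply, hi] at this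
        · rw [map_add_polar, hQ, h0, h1]
          have h3 : sympForm m F e₀ e₁ = 0 := by
            simp [sympForm_single_inl, e₀, e₁, Pi.single_apply]
          rw [h3, add_zero]
          intro h4
          have h5 : (1 : F) + 1 = 0 := by linear_combination h2
          rw [h5] at h4
          exact zero_ne_one h4
      · exact ⟨e₁, he₁, h1⟩
    · exact ⟨e₀, he₀, h0⟩
  obtain ⟨w, hw0, hw1⟩ := hex
  intro htop
  have hmem : (⟨sympTransvection m w 1, sympTransvection_mem w 1⟩ : symplecticGroup (Fin m) F) ∈ O Q := by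
    rw [htop]; trivial
  obtain ⟨x, hx⟩ := exists_sympForm_ne hw0
  have h3 := hmem x
  change Q (sympTransvection m w 1 *ᵥ x) = Q x at h3
  rw [sympTransvection_mulVec, one_mul, map_add_polar, hQ, QuadraticMap.map_smul] at h3
  set s := sympForm m F x w with hs
  have h4 : sympForm m F x (s • w) = s * s := by
    simp only [sympForm, mulVec_smul, dotProduct_smul, smul_eq_mul]
    rw [hs, sympForm]
  rw [h4] at h3
  simp only [smul_eq_mul] at h3
  have h5 : s * s * (Q w + 1) = 0 := by linear_combination h3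
  have h6 : Q w + 1 ≠ 0 := by
    intro h
    apply hw1
    linear_combination h - h2
  rcases mul_eq_zero.1 h5 with h7 | h7
  · exact hx (mul_self_eq_zero.1 h7)
  · exact h6 h7

/-- Two forms, isometric by `φ`: the conjugate of the orthogonal group. -/
theorem exists_conj {Q Q' : QuadraticForm F (Fin m ⊕ Fin m → F)} (hQ : IsPolarForm Q) (hQ' : IsPolarForm Q')
    (φ : (Fin m ⊕ Fin m → F) ≃ₗ[F] (Fin m ⊕ Fin m → F)) (hφ : ∀ x, Q' (φ x) = Q x)
    (g : symplecticGroup (Fin m) F) (hg : g ∈ O Q) : ∃ y : symplecticGroup (Fin m) F, y * g * y⁻¹ ∈ O Q' := by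
  have hiso : φ ∈ Cfsg.Agent.Lib.Classical.Symp.AltForm.IsomGroup (sympBilin m F) := by
    intro u v
    have h1 : sympForm m F (φ u) (φ v) = sympForm m F u v := by
      rw [← hQ', ← hQ]
      simp only [polar, ← map_add, hφ]
    exact h1
  let e : symplecticGroup (Fin m) F ≃* _ := spEquivIsom (m := m) (F := F)
  let y : symplecticGroup (Fin m) F := e.symm ⟨φ, hiso⟩
  have hy : ∀ x, (y : MM m F) *ᵥ x = φ x := by
    intro x
    have h1 : ((e y : Cfsg.Agent.Lib.Classical.Symp.AltForm.IsomGroup (sympBilin m F)) : (Fin m ⊕ Fin m → F) ≃ₗ[F] (Fin m ⊕ Fin m → F)) = φ := by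
      simp [y]
    have h2 := spEquivIsom_apply y x
    rw [← h2]
    exact (congrArg (fun ψ : (Fin m ⊕ Fin m → F) ≃ₗ[F] (Fin m ⊕ Fin m → F) => ψ x) h1).symm ▸ rfl
  refine ⟨y, ?_⟩
  intro x
  have hcoe : ((y * g * y⁻¹ : symplecticGroup (Fin m) F) : MM m F) =
      (y : MM m F) * (g : MM m F) * ((y⁻¹ : symplecticGroup (Fin m) F) : MM m F) := rfl
  have hyy : (y : MM m F) *ᵥ (((y⁻¹ : symplecticGroup (Fin m) F) : MM m F) *ᵥ x) = x := by
    rw [Matrix.mulVec_mulVec]
    have : (y : MM m F) * ((y⁻¹ : symplecticGroup (Fin m) F) : MM m F) = 1 := by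
      rw [← Submonoid.coe_mul, mul_inv_cancel]; rfl
    rw [this, Matrix.one_mulVec]
  rw [hcoe, ← Matrix.mulVec_mulVec, ← Matrix.mulVec_mulVec, hy, hφ, hg]
  rw [← hφ, ← hy, hyy]

/-- Two anisotropic parameters give isometric minus forms. -/
theorem exists_iso_minus (k : ℕ) {ζ ζ' : F} (hζ : ∀ t : F, t ^ 2 + t + ζ ≠ 0)
    (hζ' : ∀ t : F, t ^ 2 + t + ζ' ≠ 0) :
    ∃ ι : ((Fin k ⊕ Fin k) ⊕ Fin 2 → F) ≃ₗ[F] ((Fin k ⊕ Fin k) ⊕ Fin 2 → F),
      ∀ v, minusQ k F 1 ζ' (ι v) = minusQ k F 1 ζ v := by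
  classical
  have h2 : (2 : F) = 0 := CharTwo.two_eq_zero
  have hn : ∀ z : F, (∀ t : F, t ^ 2 + t + z ≠ 0) → z ∉ (wp (F := F)).range := by
    rintro z hz ⟨t, ht⟩
    apply hz t
    rw [wp_apply] at ht
    rw [ht]
    linear_combination z * h2
  have h := (AddSubgroup.add_mem_iff_of_index_two (wp_index (F := F)) (a := ζ) (b := ζ')).2
    (iff_of_false (hn _ hζ) (hn _ hζ'))
  obtain ⟨t, ht⟩ := h
  rw [wp_apply] at ht
  let f : ((Fin k ⊕ Fin k) ⊕ Fin 2 → F) →ₗ[F] ((Fin k ⊕ Fin k) ⊕ Fin 2 → F) :=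
    LinearMap.id + (t • LinearMap.proj (Sum.inr 1)).smulRight (Pi.single (Sum.inr 0) 1)
  have hf : ∀ v i, f v i = v i + t * v (Sum.inr 1) * (Pi.single (Sum.inr 0) (1 : F) : (Fin k ⊕ Fin k) ⊕ Fin 2 → F) i := by
    intro v i
    simp [f]
  have hf_l : ∀ v i, f v (Sum.inl i) = v (Sum.inl i) := by
    intro v i
    rw [hf]
    simp
  have hf_0 : ∀ v, f v (Sum.inr 0) = v (Sum.inr 0) + t * v (Sum.inr 1) := by
    intro v
    rw [hf]
    simp
  have hf_1 : ∀ v, f v (Sum.inr 1) = v (Sum.inr 1) := by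
    intro v
    rw [hf]
    simp
  have hinv : Function.Involutive f := by
    intro v
    funext i
    rcases i with i | i
    · rw [hf_l, hf_l]
    · fin_cases i
      · change f (f v) (Sum.inr 0) = v (Sum.inr 0)
        rw [hf_0, hf_0, hf_1]
        linear_combination (t * v (Sum.inr 1)) * h2
      · change f (f v) (Sum.inr 1) = v (Sum.inr 1)
        rw [hf_1, hf_1]
  refine ⟨LinearEquiv.ofInvolutive f hinv, fun v => ?_⟩
  change minusQ k F 1 ζ' (f v) = _
  simp only [minusQ_apply, quadFormMinus, hf_l, hf_0, hf_1]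
  linear_combination (t * v (Sum.inr 0) * v (Sum.inr 1) + ζ' * v (Sum.inr 1) ^ 2) * h2 +
    (v (Sum.inr 1) ^ 2) * ht

/-- Central symplectic matrices preserve every quadratic form. -/
theorem center_le_O (hm : 1 ≤ m) (Q : QuadraticForm F (Fin m ⊕ Fin m → F)) :
    Subgroup.center (symplecticGroup (Fin m) F) ≤ O Q := by
  intro A hA x
  rcases (Cfsg.Agent.Lib.Classical.Symp.SimpleMatrix.center_symplectic_iff A hm).1 hA with h | h
  · rw [h, Matrix.one_mulVec]
  · rw [h, Matrix.neg_mulVec, Matrix.one_mulVec, QuadraticMap.map_neg]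

theorem cover2_char_two (hm : 2 ≤ m) : Cover2 (PSp m F) := by
  classical
  have hV : finrank F (Fin m ⊕ Fin m → F) = 2 * m := by
    simp [two_mul]
  -- the reference form of minus type
  have hQm : ∃ Qm : QuadraticForm F (Fin m ⊕ Fin m → F), IsPolarForm Qm ∧
      ∀ Q : QuadraticForm F (Fin m ⊕ Fin m → F),
        (∃ ζ : F, (∀ t : F, t ^ 2 + t + ζ ≠ 0) ∧
          ∃ g : (Fin m ⊕ Fin m → F) ≃ₗ[F] ((Fin (m - 1) ⊕ Fin (m - 1)) ⊕ Fin 2 → F),
            ∀ v, minusQ (m - 1) F 1 ζ (g v) = Q v) → IsPolarForm Q →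
        ∃ φ : (Fin m ⊕ Fin m → F) ≃ₗ[F] (Fin m ⊕ Fin m → F), ∀ x, Qm (φ x) = Q x := by
    by_cases hex : ∃ Q₁ : QuadraticForm F (Fin m ⊕ Fin m → F), IsPolarForm Q₁ ∧ ∃ ζ : F,
        (∀ t : F, t ^ 2 + t + ζ ≠ 0) ∧
          ∃ g : (Fin m ⊕ Fin m → F) ≃ₗ[F] ((Fin (m - 1) ⊕ Fin (m - 1)) ⊕ Fin 2 → F),
            ∀ v, minusQ (m - 1) F 1 ζ (g v) = Q₁ v
    · obtain ⟨Q₁, hQ₁, ζ₁, hζ₁, g₁, hg₁⟩ := hex
      refine ⟨Q₁, hQ₁, ?_⟩
      rintro Q ⟨ζ, hζ, g, hg⟩ -
      obtain ⟨ι, hι⟩ := exists_iso_minus (F := F) (m - 1) hζ hζ₁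
      refine ⟨g.trans (ι.trans g₁.symm), fun x => ?_⟩
      rw [← hg₁, ← hg]
      simp [hι]
    · refine ⟨plusQ m F, isPolar_plus, ?_⟩
      rintro Q ⟨ζ, hζ, g, hg⟩ hQ
      exact absurd ⟨Q, hQ, ζ, hζ, g, hg⟩ hex
  obtain ⟨Qm, hQm, hQmall⟩ := hQm
  refine cover2_quotient (Subgroup.center _) (O (plusQ m F)) (O Qm) (center_le_O (by omega) _)
    (center_le_O (by omega) _) (O_ne_top hm isPolar_plus) (O_ne_top hm hQm) ?_
  intro g
  have hgg : (g : MM m F) * ((g⁻¹ : symplecticGroup (Fin m) F) : MM m F) = 1 := by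
    rw [← Submonoid.coe_mul, mul_inv_cancel]; rfl
  obtain ⟨Q, hQ, hinv⟩ := exists_invariant (g : MM m F) ((g⁻¹ : symplecticGroup (Fin m) F) : MM m F)
    (mem_symplecticGroup_iff_forall.1 g.2) hgg
  rcases Cfsg.Agent.Lib.Classical.Witt.Index.exists_isometry_plus_or_minus (by omega) hV Q (nondeg_of hQ) with
    ⟨φ, hφ⟩ | hmin
  · obtain ⟨y, hy⟩ := exists_conj hQ isPolar_plus φ hφ g hinv
    exact ⟨y, Or.inl hy⟩
  · obtain ⟨φ, hφ⟩ := hQmall Q hmin hQ
    obtain ⟨y, hy⟩ := exists_conj hQ hQm φ hφ g hinv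
    exact ⟨y, Or.inr hy⟩

end Cfsg.Agent.Lib.Cover2.PSpTwo

namespace Cfsg.Agent.Lib.Cover2.PSpTwo

open Cfsg.Agent.Lib.Cover2

/-- `PSp_{2m}(F)`, `|F|` even, is a union of conjugates of `O⁺` and `O⁻`. -/
theorem cover2 {F : Type*} [Field F] [Fintype F] (m : ℕ) (hm : 2 ≤ m) (hF : ¬ Odd (Fintype.card F)) :
    Cover2 (Cfsg.PSp m F) := by
  have h : ringChar F = 2 := by
    by_contra h
    exact hF (Nat.odd_iff.2 (FiniteField.odd_card_of_char_ne_two h))
  haveI : CharP F 2 := ringChar.of_eq h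
  exact cover2_char_two hm

end Cfsg.Agent.Lib.Cover2.PSpTwo
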